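import Mathlib
import Cfsg.Agent.Eq.Def_Characters
import Cfsg.Agent.Chars.Basic
import Cfsg.Agent.Chars.Induced.Basic
import Cfsg.Agent.Unipotent.Bruhat

/-!
# Cuspidal characters of GL_n: pattern groups and block structures
-/

set_option autoImplicit false

noncomputable section

namespace CfsgLib.GLCusp

open Matrix Finset
open CfsgLib.Unipotent (pm pmMat coe_pm)
open scoped Classical

variable {F : Type*} [Field F] [Fintype F] [DecidableEq F] {n : ℕ}

/-- Matrices equal to the identity off the pattern `S`. -/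
def Pat (S : Fin n → Fin n → Prop) (g : GL (Fin n) F) : Prop :=
  ∀ i j, ¬ S i j → (g : Matrix (Fin n) (Fin n) F) i j = (1 : Matrix (Fin n) (Fin n) F) i j

theorem pat_mul {S : Fin n → Fin n → Prop} (hS : ∀ i j k, S i j → S j k → S i k)
    {g h : GL (Fin n) F} (hg : Pat S g) (hh : Pat S h) : Pat S (g * h) := by
  intro i j hij
  rw [Units.val_mul, Matrix.mul_apply]
  rw [Finset.sum_eq_single i]
  · by_cases hii : S i i
    · have hne : i ≠ j := fun e => hij (e ▸ hii)
      rw [hh i j hij, Matrix.one_apply_ne hne, mul_zero]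
    · rw [hg i i hii, Matrix.one_apply_eq, one_mul, hh i j hij]
  · intro k _ hk
    by_cases hik : S i k
    · have hkj : ¬ S k j := fun h => hij (hS i k j hik h)
      by_cases e : k = j
      · exact absurd (e ▸ hik) hij
      · rw [hh k j hkj, Matrix.one_apply_ne e, mul_zero]
    · rw [hg i k hik, Matrix.one_apply_ne (Ne.symm hk), zero_mul]
  · simp

/-- A nonempty set closed under products in a finite group, as a subgroup. -/
def finSubgroup {G : Type*} [Group G] [Finite G] (p : G → Prop) (h1 : p 1)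
    (hmul : ∀ a b, p a → p b → p (a * b)) : Subgroup G where
  carrier := {g | p g}
  mul_mem' := fun {a b} ha hb => hmul a b ha hb
  one_mem' := h1
  inv_mem' := fun {a} ha => by
    have hpow : ∀ k : ℕ, p (a ^ k) := fun k => by
      induction k with
      | zero => simpa using h1
      | succ k ih => rw [pow_succ]; exact hmul _ _ ih ha
    have e : a⁻¹ = a ^ (orderOf a - 1) := by
      refine inv_eq_of_mul_eq_one_right ?_
      rw [← pow_succ', Nat.sub_add_cancel (orderOf_pos a), pow_orderOf_eq_one]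
    show p a⁻¹
    rw [e]
    exact hpow _

/-- The pattern subgroup of a transitive pattern. -/
def pat (S : Fin n → Fin n → Prop) (hS : ∀ i j k, S i j → S j k → S i k) :
    Subgroup (GL (Fin n) F) :=
  finSubgroup (Pat S) (fun i j _ => by simp) fun _ _ => pat_mul hS

theorem mem_pat {S : Fin n → Fin n → Prop} {hS : ∀ i j k, S i j → S j k → S i k}
    {g : GL (Fin n) F} : g ∈ pat S hS ↔ Pat S g := Iff.rfl

/-- A sum over a pattern group, as a sum over `GL_n`. -/
def psum (S : Fin n → Fin n → Prop) (f : GL (Fin n) F → ℂ) : ℂ :=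
  ∑ g : GL (Fin n) F, if Pat S g then f g else 0

theorem psum_congr_iff {S S' : Fin n → Fin n → Prop} (h : ∀ i j, S i j ↔ S' i j)
    (f : GL (Fin n) F → ℂ) : psum S f = psum S' f := by
  rw [show S = S' from funext fun i => funext fun j => propext (h i j)]

theorem psum_eq {S : Fin n → Fin n → Prop} (hS : ∀ i j k, S i j → S j k → S i k)
    (f : GL (Fin n) F → ℂ) :
    psum S f = ∑ g : (pat S hS : Subgroup (GL (Fin n) F)), f g := by
  rw [psum, ← Finset.sum_filter, Finset.sum_subtype]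
  intro g
  simp [mem_pat]

/-! ## Permutation matrices -/

theorem pm_apply (σ : Equiv.Perm (Fin n)) (i j : Fin n) :
    ((pm σ : GL (Fin n) F) : Matrix (Fin n) (Fin n) F) i j = if i = σ j then 1 else 0 := rfl

theorem mul_pm_apply (σ : Equiv.Perm (Fin n)) (g : GL (Fin n) F) (i j : Fin n) :
    ((g * pm σ : GL (Fin n) F) : Matrix (Fin n) (Fin n) F) i j
      = (g : Matrix (Fin n) (Fin n) F) i (σ j) := by
  rw [Units.val_mul, Matrix.mul_apply, Finset.sum_eq_single (σ j)]
  · rw [pm_apply, if_pos rfl, mul_one]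
  · intro b _ hb
    rw [pm_apply, if_neg hb, mul_zero]
  · simp

theorem pm_mul_apply (σ : Equiv.Perm (Fin n)) (g : GL (Fin n) F) (i j : Fin n) :
    ((pm σ * g : GL (Fin n) F) : Matrix (Fin n) (Fin n) F) i j
      = (g : Matrix (Fin n) (Fin n) F) (σ.symm i) j := by
  rw [Units.val_mul, Matrix.mul_apply, Finset.sum_eq_single (σ.symm i)]
  · rw [pm_apply, if_pos (σ.apply_symm_apply i).symm, one_mul]
  · intro b _ hb
    rw [pm_apply, if_neg (fun e => hb (by rw [e, σ.symm_apply_apply])), zero_mul]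
  · simp

theorem conj_pm_apply (σ : Equiv.Perm (Fin n)) (g : GL (Fin n) F) (i j : Fin n) :
    (((pm σ)⁻¹ * g * pm σ : GL (Fin n) F) : Matrix (Fin n) (Fin n) F) i j
      = (g : Matrix (Fin n) (Fin n) F) (σ i) (σ j) := by
  rw [mul_pm_apply, ← map_inv, pm_mul_apply]
  simp [Equiv.Perm.inv_def]

theorem pm_conj_apply (σ : Equiv.Perm (Fin n)) (g : GL (Fin n) F) (i j : Fin n) :
    ((pm σ * g * (pm σ)⁻¹ : GL (Fin n) F) : Matrix (Fin n) (Fin n) F) i j
      = (g : Matrix (Fin n) (Fin n) F) (σ.symm i) (σ.symm j) := by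
  rw [← map_inv, mul_pm_apply, pm_mul_apply]
  simp [Equiv.Perm.inv_def]

theorem pat_conj_pm {S : Fin n → Fin n → Prop} (σ : Equiv.Perm (Fin n)) (g : GL (Fin n) F) :
    Pat S ((pm σ)⁻¹ * g * pm σ) ↔ Pat (fun i j => S (σ.symm i) (σ.symm j)) g := by
  constructor <;> intro h i j hij
  · have := h (σ.symm i) (σ.symm j) hij
    rw [conj_pm_apply, σ.apply_symm_apply, σ.apply_symm_apply] at this
    rw [this]
    simp [Matrix.one_apply]
  · rw [conj_pm_apply, h (σ i) (σ j) (by simpa using hij)]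
    simp [Matrix.one_apply]

theorem psum_conj_pm {S : Fin n → Fin n → Prop} (σ : Equiv.Perm (Fin n))
    {f : GL (Fin n) F → ℂ} (hf : Cfsg.IsClassFunction (GL (Fin n) F) f) :
    psum (fun i j => S (σ.symm i) (σ.symm j)) f = psum S f := by
  rw [psum, psum]
  refine Fintype.sum_equiv (MulAut.conj (pm σ)⁻¹).toEquiv _ _ fun g => ?_
  have e : (MulAut.conj (pm σ)⁻¹).toEquiv g = (pm σ)⁻¹ * g * pm σ := by simp
  rw [e]
  have e2 : f ((pm σ)⁻¹ * g * pm σ) = f g := by
    have := hf g (pm σ)⁻¹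
    rwa [inv_inv] at this
  simp only [pat_conj_pm, e2]

/-- The bipartite pattern of a set of positions. -/
def cut (L : Finset (Fin n)) (i j : Fin n) : Prop := i ∈ L ∧ j ∉ L

theorem cut_trans (L : Finset (Fin n)) : ∀ i j k, cut L i j → cut L j k → cut L i k :=
  fun _ _ _ h h' => absurd h'.1 h.2

/-- Cuspidality: no bipartite pattern group has a fixed vector. -/
def IsCusp (f : GL (Fin n) F → ℂ) : Prop :=
  ∀ L : Finset (Fin n), L.Nonempty → L ≠ univ → psum (cut L) f = 0

theorem isCusp_of_cuts {f : GL (Fin n) F → ℂ} (hf : Cfsg.IsClassFunction (GL (Fin n) F) f)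
    (h : ∀ m : ℕ, 0 < m → m < n → psum (fun i j : Fin n => i.val < m ∧ m ≤ j.val) f = 0) :
    IsCusp f := by
  intro L hL hL'
  set m := L.card with hm
  have hmn : m < n := by
    obtain ⟨x, hx⟩ : ∃ x, x ∉ L := by
      by_contra hc
      exact hL' (Finset.eq_univ_iff_forall.2 (not_exists_not.1 hc))
    simpa [hm] using Finset.card_lt_univ_of_notMem hx
  have hmpos : 0 < m := Finset.card_pos.2 hL
  let A : Finset (Fin n) := univ.filter fun i => i.val < m
  have hA : A.card = L.card := by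
    rw [← hm]
    have e : A = Finset.map ⟨Fin.castLE hmn.le, Fin.castLE_injective _⟩ univ := by
      ext i
      simp only [A, mem_filter, mem_univ, true_and, mem_map, Function.Embedding.coeFn_mk]
      exact ⟨fun hi => ⟨⟨i, hi⟩, Fin.ext rfl⟩, by rintro ⟨k, rfl⟩; exact k.2⟩
    simp [e]
  obtain ⟨σ, hσ⟩ : ∃ σ : Equiv.Perm (Fin n), ∀ i, σ i ∈ L ↔ i ∈ A := by
    let e : {i // i ∈ A} ≃ {i // i ∈ L} := Finset.equivOfCardEq hA
    refine ⟨e.extendSubtype, fun i => ⟨fun h' => ?_, fun h' => e.extendSubtype_mem i h'⟩⟩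
    by_contra hi
    exact e.extendSubtype_not_mem i hi h'
  rw [← h m hmpos hmn, ← psum_conj_pm σ hf (S := fun i j => i.val < m ∧ m ≤ j.val)]
  refine psum_congr_iff (fun i j => ?_) f
  have h1 := hσ (σ.symm i)
  have h2 := hσ (σ.symm j)
  rw [σ.apply_symm_apply] at h1 h2
  simp only [cut, h1, h2, A, mem_filter, mem_univ, true_and, not_lt]

theorem cuts_of_isCusp {f : GL (Fin n) F → ℂ} (h : IsCusp f) (m : ℕ) (hm : 0 < m) (hmn : m < n) :
    psum (fun i j : Fin n => i.val < m ∧ m ≤ j.val) f = 0 := by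
  rw [← h (univ.filter fun i => i.val < m) ⟨⟨0, hm.trans hmn⟩, by simp [hm]⟩ (fun e => by
    have : (⟨m, hmn⟩ : Fin n) ∈ univ.filter fun i : Fin n => i.val < m := by rw [e]; simp
    simp at this)]
  exact psum_congr_iff (fun i j => by simp [cut]) f

/-! ## Block structures -/

/-- A surjective monotone block labelling. -/
structure Blk (n : ℕ) where
  r : ℕ
  β : Fin n → Fin r
  mono : Monotone β
  surj : Function.Surjective β

namespace Blk

variable (B : Blk n)

/-- The size of a block. -/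
def s (a : Fin B.r) : ℕ := (univ.filter fun i => B.β i = a).card

/-- The positions of a block. -/
def e (a : Fin B.r) : Fin (B.s a) ↪o Fin n :=
  (univ.filter fun i => B.β i = a).orderEmbOfFin rfl

theorem β_e (a : Fin B.r) (k : Fin (B.s a)) : B.β (B.e a k) = a := by
  have := Finset.orderEmbOfFin_mem (univ.filter fun i => B.β i = a) rfl k
  exact (Finset.mem_filter.1 this).2

theorem exists_e (i : Fin n) : ∃ k, B.e (B.β i) k = i := by
  have : i ∈ Set.range (B.e (B.β i)) := by
    have h := Finset.range_orderEmbOfFin (univ.filter fun j => B.β j = B.β i)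
      (rfl : _ = B.s (B.β i))
    exact h.symm ▸ Finset.mem_coe.2 (Finset.mem_filter.2 ⟨Finset.mem_univ i, rfl⟩)
  exact this

theorem s_pos (a : Fin B.r) : 0 < B.s a := by
  obtain ⟨i, rfl⟩ := B.surj a
  obtain ⟨k, -⟩ := B.exists_e i
  exact k.pos

theorem e_inj {a b : Fin B.r} {k : Fin (B.s a)} {l : Fin (B.s b)} (h : B.e a k = B.e b l) :
    a = b := by rw [← B.β_e a k, h, B.β_e]

/-- All positions, block by block. -/
def idx : (Σ a : Fin B.r, Fin (B.s a)) ≃ Fin n :=
  Equiv.ofBijective (fun x => B.e x.1 x.2) ⟨by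
    rintro ⟨a, k⟩ ⟨b, l⟩ h
    obtain rfl := B.e_inj h
    simpa using h, fun i => ⟨⟨B.β i, (B.exists_e i).choose⟩, (B.exists_e i).choose_spec⟩⟩

theorem idx_apply (a : Fin B.r) (k : Fin (B.s a)) : B.idx ⟨a, k⟩ = B.e a k := rfl

theorem β_idx (x : Σ a : Fin B.r, Fin (B.s a)) : B.β (B.idx x) = x.1 := B.β_e x.1 x.2

theorem e_adj (a : Fin B.r) (k l : Fin (B.s a)) (h : k.val + 1 = l.val) :
    (B.e a k).val + 1 = (B.e a l).val := by
  have hlt : (B.e a k).val < (B.e a l).val := (B.e a).strictMono (by omega : k.val < l.val)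
  by_contra hne
  have hm : (B.e a k).val + 1 < (B.e a l).val := by omega
  let x : Fin n := ⟨(B.e a k).val + 1, hm.trans (B.e a l).isLt⟩
  have h1 : B.e a k ≤ x := Fin.le_def.2 (Nat.le_succ _)
  have h2 : x ≤ B.e a l := Fin.le_def.2 hm.le
  have hx : B.β x = a := by
    refine le_antisymm ?_ ?_
    · exact (B.mono h2).trans_eq (B.β_e a l)
    · exact (B.β_e a k).symm.trans_le (B.mono h1)
  obtain ⟨j, hj⟩ := B.exists_e x
  revert j
  rw [hx]
  intro j hj
  have hkj : k < j := (B.e a).lt_iff_lt.1 (by rw [hj, Fin.lt_def]; exact Nat.lt_succ_self _)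
  have hjl : j < l := (B.e a).lt_iff_lt.1 (by rw [hj, Fin.lt_def]; exact hm)
  rw [Fin.lt_def] at hkj hjl
  omega

theorem e_adj_iff (a : Fin B.r) (k l : Fin (B.s a)) :
    (B.e a k).val + 1 = (B.e a l).val ↔ k.val + 1 = l.val := by
  refine ⟨fun h => ?_, B.e_adj a k l⟩
  have hlt : k < l := (B.e a).lt_iff_lt.1 (by rw [Fin.lt_def]; omega)
  rw [Fin.lt_def] at hlt
  by_contra hne
  let j : Fin (B.s a) := ⟨k.val + 1, by omega⟩
  have h1 : (B.e a k).val < (B.e a j).val := (B.e a).strictMono (by simp [j, Fin.lt_def])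
  have h2 : (B.e a j).val < (B.e a l).val := (B.e a).strictMono (by simp [j, Fin.lt_def]; omega)
  omega

/-- Block upper triangular. -/
def IsPar (g : GL (Fin n) F) : Prop :=
  ∀ i j, B.β j < B.β i → (g : Matrix (Fin n) (Fin n) F) i j = 0

theorem isPar_mul {g h : GL (Fin n) F} (hg : B.IsPar g) (hh : B.IsPar h) : B.IsPar (g * h) := by
  intro i j hij
  rw [Units.val_mul, Matrix.mul_apply]
  refine Finset.sum_eq_zero fun k _ => ?_
  by_cases h1 : B.β k < B.β i
  · rw [hg i k h1, zero_mul]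
  · rw [hh k j (lt_of_lt_of_le hij (not_lt.1 h1)), mul_zero]

/-- The parabolic subgroup. -/
def P : Subgroup (GL (Fin n) F) :=
  finSubgroup B.IsPar (fun i j h => by
    rw [Units.val_one, Matrix.one_apply_ne]; rintro rfl; exact lt_irrefl _ h) fun _ _ => B.isPar_mul

theorem mem_P {g : GL (Fin n) F} : g ∈ (B.P : Subgroup (GL (Fin n) F)) ↔ B.IsPar g := Iff.rfl

theorem upper_mem_P {g : GL (Fin n) F} (hg : CfsgLib.Unipotent.IsUpper g) : g ∈ B.P := by
  intro i j hij
  refine hg i j ?_
  by_contra h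
  exact absurd (B.mono (not_lt.1 h)) (not_le.2 hij)

theorem sub_mul {g h : GL (Fin n) F} (hg : B.IsPar g) (hh : B.IsPar h) (a : Fin B.r) :
    (((g * h : GL (Fin n) F) : Matrix (Fin n) (Fin n) F)).submatrix (B.e a) (B.e a)
      = (g : Matrix (Fin n) (Fin n) F).submatrix (B.e a) (B.e a)
        * (h : Matrix (Fin n) (Fin n) F).submatrix (B.e a) (B.e a) := by
  ext k l
  simp only [Matrix.submatrix_apply, Units.val_mul, Matrix.mul_apply]
  rw [← Equiv.sum_comp B.idx, Fintype.sum_sigma, Finset.sum_eq_single a]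
  · rfl
  · intro b _ hb
    refine Finset.sum_eq_zero fun m _ => ?_
    rw [B.idx_apply]
    rcases lt_or_gt_of_ne hb with h1 | h1
    · rw [hg _ _ (by rw [B.β_e, B.β_e]; exact h1), zero_mul]
    · rw [hh _ _ (by rw [B.β_e, B.β_e]; exact h1), mul_zero]
  · simp

/-- The diagonal block of an element of the parabolic subgroup. -/
def proj (a : Fin B.r) : (B.P : Subgroup (GL (Fin n) F)) →* GL (Fin (B.s a)) F :=
  MonoidHom.toHomUnits
    { toFun := fun g => ((g : GL (Fin n) F) : Matrix (Fin n) (Fin n) F).submatrix (B.e a) (B.e a)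
      map_one' := by
        ext k l
        simp [Matrix.one_apply]
      map_mul' := fun g h => B.sub_mul g.2 h.2 a }

theorem proj_apply (a : Fin B.r) (g : (B.P : Subgroup (GL (Fin n) F))) (k l : Fin (B.s a)) :
    ((B.proj a g : GL (Fin (B.s a)) F) : Matrix (Fin (B.s a)) (Fin (B.s a)) F) k l
      = ((g : GL (Fin n) F) : Matrix (Fin n) (Fin n) F) (B.e a k) (B.e a l) := rfl

/-- The Levi subgroup as a product. -/
abbrev M (F : Type*) [Field F] : Type _ := ∀ a : Fin B.r, GL (Fin (B.s a)) F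

/-- Block diagonal embedding. -/
def emb : B.M F →* GL (Fin n) F :=
  (Units.map ((Matrix.reindexAlgEquiv F F B.idx : Matrix _ _ F →* Matrix (Fin n) (Fin n) F).comp
    (Matrix.blockDiagonal'RingHom (fun a => Fin (B.s a)) F).toMonoidHom)).comp
    (MulEquiv.piUnits.symm.toMonoidHom)

theorem emb_apply (m : B.M F) (a b : Fin B.r) (k : Fin (B.s a)) (l : Fin (B.s b)) :
    ((B.emb m : GL (Fin n) F) : Matrix (Fin n) (Fin n) F) (B.e a k) (B.e b l)
      = Matrix.blockDiagonal' (fun c => (m c : Matrix (Fin (B.s c)) (Fin (B.s c)) F))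
          ⟨a, k⟩ ⟨b, l⟩ := by
  rw [← B.idx_apply, ← B.idx_apply]
  simp [emb, Matrix.reindex_apply]
  rfl

theorem emb_diag (m : B.M F) (a : Fin B.r) (k l : Fin (B.s a)) :
    ((B.emb m : GL (Fin n) F) : Matrix (Fin n) (Fin n) F) (B.e a k) (B.e a l)
      = (m a : Matrix (Fin (B.s a)) (Fin (B.s a)) F) k l := by
  rw [emb_apply, Matrix.blockDiagonal'_apply_eq]

theorem emb_off (m : B.M F) {i j : Fin n} (h : B.β i ≠ B.β j) :
    ((B.emb m : GL (Fin n) F) : Matrix (Fin n) (Fin n) F) i j = 0 := by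
  obtain ⟨k, hk⟩ := B.exists_e i
  obtain ⟨l, hl⟩ := B.exists_e j
  conv_lhs => rw [← hk, ← hl]
  rw [emb_apply]
  exact Matrix.blockDiagonal'_apply_ne _ _ _ h

theorem emb_mem (m : B.M F) : B.emb m ∈ (B.P : Subgroup (GL (Fin n) F)) :=
  fun _ _ h => B.emb_off m h.ne'

/-- All diagonal blocks. -/
def projAll : (B.P : Subgroup (GL (Fin n) F)) →* B.M F := MonoidHom.pi B.proj

theorem projAll_emb (m : B.M F) : B.projAll ⟨B.emb m, B.emb_mem m⟩ = m := by
  funext a
  ext k l
  exact B.emb_diag m a k l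

/-- The pattern of the unipotent radical. -/
def U' (i j : Fin n) : Prop := B.β i < B.β j

theorem U'_trans : ∀ i j k, B.U' i j → B.U' j k → B.U' i k := fun _ _ _ h h' => lt_trans h h'

theorem U_mem_P {u : GL (Fin n) F} (hu : Pat B.U' u) : u ∈ B.P := fun i j h => by
  rw [hu i j (fun h' => lt_asymm h h'), Matrix.one_apply_ne]
  rintro rfl
  exact lt_irrefl _ h

theorem projAll_eq_one_iff (g : (B.P : Subgroup (GL (Fin n) F))) :
    B.projAll g = 1 ↔ Pat B.U' (g : GL (Fin n) F) := by
  constructor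
  · intro h i j hij
    rcases lt_or_eq_of_le (not_lt.1 hij) with hlt | heq
    · rw [g.2 i j hlt, Matrix.one_apply_ne]
      rintro rfl
      exact lt_irrefl _ hlt
    · obtain ⟨k, hk⟩ := B.exists_e i
      obtain ⟨l, hl⟩ := B.exists_e j
      revert l
      rw [heq]
      intro l hl
      have h' := congrArg (fun m : B.M F => ((m (B.β i) : GL _ F) : Matrix _ _ F) k l) h
      simp only [projAll, MonoidHom.pi_apply, proj_apply, Pi.one_apply, Units.val_one] at h'
      rw [hk, hl] at h'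
      rw [h']
      rcases eq_or_ne k l with rfl | hne
      · obtain rfl : i = j := hk.symm.trans hl
        rw [Matrix.one_apply_eq, Matrix.one_apply_eq]
      · rw [Matrix.one_apply_ne hne, Matrix.one_apply_ne]
        intro eij
        exact hne ((B.e _).injective (hk.trans (eij.trans hl.symm)))
  · intro h
    funext a
    ext k l
    simp only [projAll, MonoidHom.pi_apply, proj_apply, Pi.one_apply, Units.val_one]
    rw [h _ _ (by simp [U', B.β_e])]
    simp [Matrix.one_apply]

/-- The parabolic subgroup as blocks times radical. -/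
def pEquiv : (B.P : Subgroup (GL (Fin n) F)) ≃ B.M F × {u : GL (Fin n) F // Pat B.U' u} where
  toFun g := (B.projAll g, ⟨(B.emb (B.projAll g))⁻¹ * g,
    (B.projAll_eq_one_iff (⟨B.emb (B.projAll g), B.emb_mem _⟩⁻¹ * g)).1 (by
      rw [map_mul, map_inv, B.projAll_emb, inv_mul_cancel])⟩)
  invFun x := ⟨B.emb x.1, B.emb_mem _⟩ * ⟨x.2, B.U_mem_P x.2.2⟩
  left_inv g := Subtype.ext (by simp)
  right_inv x := by
    have h : B.projAll (⟨B.emb x.1, B.emb_mem _⟩ * ⟨x.2, B.U_mem_P x.2.2⟩) = x.1 := by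
      have h1 : B.projAll ⟨(x.2 : GL (Fin n) F), B.U_mem_P x.2.2⟩ = 1 :=
        (B.projAll_eq_one_iff _).2 x.2.2
      rw [map_mul, h1, mul_one]
      exact B.projAll_emb x.1
    refine Prod.ext h (Subtype.ext ?_)
    change (B.emb (B.projAll (⟨B.emb x.1, B.emb_mem _⟩ * ⟨x.2, B.U_mem_P x.2.2⟩)))⁻¹ *
        (B.emb x.1 * (x.2 : GL (Fin n) F)) = x.2
    rw [h, inv_mul_cancel_left]

end Blk

end CfsgLib.GLCusp
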