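import Cfsg.Agent.GLCusp.Relevant

/-!
# The degree of a cuspidal character of GL_n
-/

set_option autoImplicit false

noncomputable section

namespace CfsgLib.GLCusp

open Matrix Finset CfsgLib.Chars CfsgLib.Chars.Induced
open scoped Classical ComplexConjugate

variable {F : Type*} [Field F] [Fintype F] [DecidableEq F] {n : ℕ}

/-- The mirabolic tower of unipotent patterns. -/
def colPat (k : ℕ) (i j : Fin n) : Prop := i < j ∧ k ≤ j.val

theorem colPat_trans (k : ℕ) : ∀ i j l : Fin n, colPat k i j → colPat k j l → colPat k i l :=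
  fun _ _ _ h h' => ⟨h.1.trans h'.1, h'.2⟩

theorem col_eq_one {k : ℕ} {g : GL (Fin n) F} (hg : Pat (colPat k) g) {l : Fin n} (hl : l.val < k)
    (i : Fin n) :
    (g : Matrix (Fin n) (Fin n) F) i l = (1 : Matrix (Fin n) (Fin n) F) i l :=
  hg i l fun h => absurd h.2 (not_le.2 hl)

/-- The new column. -/
def col {k : ℕ} (hk : k < n) (g : GL (Fin n) F) : Fin k → F :=
  fun i => (g : Matrix (Fin n) (Fin n) F) ⟨i, i.isLt.trans hk⟩ ⟨k, hk⟩

theorem col_mul {k : ℕ} (hk : k < n) {g h : GL (Fin n) F} (hg : Pat (colPat k) g)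
    (hh : Pat (colPat k) h) : col hk (g * h) = col hk g + col hk h := by
  funext i
  simp only [col, Pi.add_apply]
  rw [Units.val_mul, Matrix.mul_apply,
    Finset.sum_eq_add (⟨i, i.isLt.trans hk⟩ : Fin n) ⟨k, hk⟩ (Fin.ne_of_lt i.isLt)]
  · rw [col_eq_one hg i.isLt, Matrix.one_apply_eq, one_mul,
      hh ⟨k, hk⟩ ⟨k, hk⟩ (fun h => lt_irrefl _ h.1), Matrix.one_apply_eq, mul_one, add_comm]
  · intro l _ hl
    rcases lt_or_ge l.val k with h1 | h1
    · rw [col_eq_one hg h1, Matrix.one_apply_ne (Ne.symm hl.1), zero_mul]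
    · rw [hh l ⟨k, hk⟩ (fun h => absurd (Fin.lt_def.1 h.1) (not_lt.2 h1)), Matrix.one_apply_ne hl.2,
        mul_zero]
  all_goals simp

/-- The superdiagonal below row `k`. -/
def supdLow (k : ℕ) (g : GL (Fin n) F) : F :=
  ∑ i, ∑ j, if adj i j ∧ k ≤ i.val then (g : Matrix (Fin n) (Fin n) F) i j else 0

theorem supdLow_mul (k : ℕ) {g h : GL (Fin n) F} (hg : g ∈ Uu F n) (hh : h ∈ Uu F n) :
    supdLow k (g * h) = supdLow k g + supdLow k h := by
  simp only [supdLow, ← Finset.sum_add_distrib]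
  refine Finset.sum_congr rfl fun i _ => Finset.sum_congr rfl fun j _ => ?_
  split_ifs with hij
  · have hlt := hij.1.lt
    have hv : i.val + 1 = j.val := hij.1
    rw [Units.val_mul, Matrix.mul_apply, Finset.sum_eq_add i j hlt.ne]
    · rw [hg i i (lt_irrefl _), hh j j (lt_irrefl _), Matrix.one_apply_eq, Matrix.one_apply_eq,
        one_mul, mul_one, add_comm]
    · intro l _ hl
      by_cases hil : i < l
      · rw [hh l j ?_, Matrix.one_apply_ne hl.2, mul_zero]
        show ¬ l < j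
        rw [Fin.lt_def] at hil ⊢
        omega
      · rw [hg i l hil, Matrix.one_apply_ne (Ne.symm hl.1), zero_mul]
    all_goals simp
  · simp

theorem colPat_mem {k : ℕ} {g : GL (Fin n) F} (hg : Pat (colPat k) g) : g ∈ Uu F n :=
  fun i j h => hg i j fun h' => h h'.1

theorem supd_eq_supdLow_add {k : ℕ} (hk0 : 0 < k) (hk : k < n) {g : GL (Fin n) F}
    (hg : Pat (colPat k) g) : supd g = col hk g ⟨k - 1, by omega⟩ + supdLow k g := by
  have hsplit : ∀ i j : Fin n, (if adj i j then (g : Matrix (Fin n) (Fin n) F) i j else 0)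
      = (if i.val = k - 1 ∧ j.val = k then (g : Matrix (Fin n) (Fin n) F) i j else 0)
        + (if adj i j ∧ k ≤ i.val then (g : Matrix (Fin n) (Fin n) F) i j else 0) := by
    intro i j
    by_cases h1 : adj i j
    · have hv : i.val + 1 = j.val := h1
      rcases lt_or_ge i.val k with h2 | h2
      · rcases eq_or_ne j.val k with h3 | h3
        · rw [if_pos h1, if_pos ⟨by omega, h3⟩, if_neg (fun h => absurd h.2 (not_le.2 h2)), add_zero]
        · rw [if_pos h1, if_neg (fun h => h3 h.2), if_neg (fun h => absurd h.2 (not_le.2 h2)), add_zero,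
            col_eq_one hg (by omega), Matrix.one_apply_ne h1.lt.ne]
      · rw [if_pos h1, if_neg (fun h => by omega), if_pos ⟨h1, h2⟩, zero_add]
    · rw [if_neg h1, if_neg (fun h => h1 (show i.val + 1 = j.val by omega)), if_neg (fun h => h1 h.1),
        add_zero]
  simp only [supd, hsplit, Finset.sum_add_distrib, supdLow]
  congr 1
  let i₀ : Fin n := ⟨k - 1, by omega⟩
  let j₀ : Fin n := ⟨k, hk⟩
  rw [Finset.sum_eq_single i₀, Finset.sum_eq_single j₀]
  · rw [if_pos ⟨rfl, rfl⟩]; rfl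
  · intro j _ hj
    rw [if_neg fun h => hj (Fin.ext h.2)]
  · simp
  · intro i _ hi
    exact Finset.sum_eq_zero fun j _ => by rw [if_neg fun h => hi (Fin.ext h.1)]
  · simp

theorem pat_succ_iff {k : ℕ} (hk : k < n) (g : GL (Fin n) F) :
    Pat (colPat (k + 1)) g ↔ Pat (colPat k) g ∧ col hk g = 0 := by
  constructor
  · intro h
    refine ⟨fun i j hij => h i j fun h' => hij ⟨h'.1, by have := h'.2; omega⟩, funext fun i => ?_⟩
    simp only [col, Pi.zero_apply]
    rw [col_eq_one h (Nat.lt_succ_self k), Matrix.one_apply_ne]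
    exact Fin.ne_of_lt i.isLt
  · rintro ⟨h, hc⟩ i j hij
    by_cases h' : colPat k i j
    · have hjk : j.val = k := by
        by_contra hne
        exact hij ⟨h'.1, by have := h'.2; omega⟩
      have hik : i.val < k := by have := Fin.lt_def.1 h'.1; omega
      have hj : j = ⟨k, hk⟩ := Fin.ext hjk
      subst hj
      rw [Matrix.one_apply_ne (Fin.ne_of_lt hik)]
      exact congrFun hc ⟨i, hik⟩
    · exact h i j h'

/-- A column vector as a group element. -/
def colGL {k : ℕ} (hk : k < n) (v : Fin k → F) : GL (Fin n) F :=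
  Matrix.GeneralLinearGroup.mkOfDetNeZero
    (Matrix.of fun i j : Fin n => (1 : Matrix (Fin n) (Fin n) F) i j
      + if h : i.val < k ∧ j.val = k then v ⟨i, h.1⟩ else 0)
    (by
      rw [Matrix.det_of_isUpperTriangular]
      · refine Finset.prod_ne_zero_iff.2 fun i _ => ?_
        rw [Matrix.of_apply, dif_neg (by omega)]
        simp
      · intro i j hij
        simp only [id_eq] at hij
        rw [Matrix.of_apply, Matrix.one_apply_ne hij.ne', dif_neg, add_zero]
        rw [Fin.lt_def] at hij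
        omega)

theorem colGL_apply {k : ℕ} (hk : k < n) (v : Fin k → F) (i j : Fin n) :
    ((colGL hk v : GL (Fin n) F) : Matrix (Fin n) (Fin n) F) i j
      = (1 : Matrix (Fin n) (Fin n) F) i j + if h : i.val < k ∧ j.val = k then v ⟨i, h.1⟩ else 0 := rfl

theorem colGL_pat {k : ℕ} (hk : k < n) (v : Fin k → F) : Pat (colPat k) (colGL hk v) := by
  intro i j hij
  rw [colGL_apply, dif_neg, add_zero]
  rintro ⟨h1, h2⟩
  exact hij ⟨Fin.lt_def.2 (by omega), h2.ge⟩

theorem col_colGL {k : ℕ} (hk : k < n) (v : Fin k → F) : col hk (colGL hk v) = v := by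
  funext i
  simp only [col, colGL_apply]
  rw [dif_pos ⟨i.isLt, trivial⟩, Matrix.one_apply_ne (Fin.ne_of_lt i.isLt), zero_add]

theorem psum_one_succ {k : ℕ} (hk : k < n) :
    (psum (colPat k) fun _ : GL (Fin n) F => (1 : ℂ))
      = (Fintype.card F : ℂ) ^ k * psum (colPat (k + 1)) fun _ : GL (Fin n) F => (1 : ℂ) := by
  let Uk : Subgroup (GL (Fin n) F) := pat (colPat k) (colPat_trans k)
  let c : Uk →* Multiplicative (Fin k → F) :=
    MonoidHom.mk' (fun g => Multiplicative.ofAdd (col hk (g : GL (Fin n) F))) fun g h => by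
      rw [Subgroup.coe_mul, col_mul hk g.2 h.2, ofAdd_add]
  have hc : Function.Surjective c := fun v =>
    ⟨⟨colGL hk v.toAdd, colGL_pat hk _⟩, by simp [c, col_colGL]⟩
  have h := avg_comp_hom c hc (fun v => if v = 1 then (1 : ℂ) else 0)
  rw [Finset.sum_ite_eq', if_pos (Finset.mem_univ _), mul_one] at h
  have h1 : ∑ g : Uk, (if c g = 1 then (1 : ℂ) else 0)
      = psum (colPat (k + 1)) fun _ : GL (Fin n) F => (1 : ℂ) := by
    have hc1 : ∀ g : Uk, c g = 1 ↔ col hk (g : GL (Fin n) F) = 0 := fun g => by simp [c]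
    simp only [hc1]
    rw [← psum_eq (colPat_trans k) (fun g : GL (Fin n) F => if col hk g = 0 then (1 : ℂ) else 0), psum, psum]
    refine Finset.sum_congr rfl fun g _ => ?_
    by_cases hp : Pat (colPat k) g <;> by_cases hc0 : col hk g = 0 <;>
      simp [pat_succ_iff hk, hp, hc0]
  have h2 : (psum (colPat k) fun _ : GL (Fin n) F => (1 : ℂ)) = (Nat.card Uk : ℂ) := by
    rw [psum_eq (colPat_trans k)]
    simp [Uk, Nat.card_eq_fintype_card]
  have hcard : (Nat.card (Multiplicative (Fin k → F)) : ℂ) = (Fintype.card F : ℂ) ^ k := by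
    rw [Nat.card_congr Multiplicative.toAdd, Nat.card_pi]
    simp [Nat.card_eq_fintype_card]
  rw [h1, hcard] at h
  have hN : (Nat.card Uk : ℂ) ≠ 0 := Nat.cast_ne_zero.2 Nat.card_pos.ne'
  have hQ : (Fintype.card F : ℂ) ^ k ≠ 0 := pow_ne_zero _ (Nat.cast_ne_zero.2 Fintype.card_ne_zero)
  rw [h2]
  field_simp at h
  linear_combination -h

/-! ## The top block of GL_k inside GL_n -/

/-- Extension of a square matrix by the identity. -/
def topMat (k : ℕ) (hkn : k ≤ n) : Matrix (Fin k) (Fin k) F →* Matrix (Fin n) (Fin n) F where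
  toFun M := Matrix.of fun i j => if h : i.val < k ∧ j.val < k then M ⟨i, h.1⟩ ⟨j, h.2⟩
    else (1 : Matrix (Fin n) (Fin n) F) i j
  map_one' := by
    ext i j
    simp only [Matrix.of_apply]
    split_ifs with h
    · simp [Matrix.one_apply, Fin.ext_iff]
    · rfl
  map_mul' M N := by
    ext i j
    rw [Matrix.mul_apply]
    simp only [Matrix.of_apply]
    by_cases hi : i.val < k
    · by_cases hj : j.val < k
      · rw [dif_pos ⟨hi, hj⟩, Matrix.mul_apply]
        refine Finset.sum_of_injOn (fun l : Fin k => (⟨l, ?_⟩ : Fin n)) ?_ (fun l _ => by simp) ?_ ?_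
        · exact lt_of_lt_of_le l.isLt hkn
        · intro a _ b _ h
          exact Fin.ext (by simpa using congrArg Fin.val h)
        · intro l _ hl
          rw [dif_neg (fun h => hl ⟨⟨l, h.2⟩, Finset.mem_univ _, Fin.ext rfl⟩), Matrix.one_apply_ne, zero_mul]
          intro e
          subst e
          exact hl ⟨⟨i, hi⟩, Finset.mem_univ _, Fin.ext rfl⟩
        · intro l _
          rw [dif_pos ⟨hi, l.isLt⟩, dif_pos ⟨l.isLt, hj⟩]
      · rw [dif_neg (fun h => hj h.2), Finset.sum_eq_single j]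
        · rw [dif_neg (fun h => hj h.2), dif_neg (fun h => hj h.1), Matrix.one_apply_eq, mul_one]
        · intro l _ hl
          simp [hj, Matrix.one_apply_ne hl]
        · simp
    · rw [dif_neg (fun h => hi h.1), Finset.sum_eq_single i]
      · rw [dif_neg (fun h => hi h.1), dif_neg (fun h => hi h.1), Matrix.one_apply_eq, one_mul]
      · intro l _ hl
        simp [hi, Matrix.one_apply_ne (Ne.symm hl)]
      · simp

theorem topMat_apply (k : ℕ) (hkn : k ≤ n) (M : Matrix (Fin k) (Fin k) F) (i j : Fin n) :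
    topMat k hkn M i j = if h : i.val < k ∧ j.val < k then M ⟨i, h.1⟩ ⟨j, h.2⟩
      else (1 : Matrix (Fin n) (Fin n) F) i j := rfl

/-- The embedding of `GL_k`. -/
def topGL (k : ℕ) (hkn : k ≤ n) : GL (Fin k) F →* GL (Fin n) F := Units.map (topMat k hkn)

theorem coe_topGL (k : ℕ) (hkn : k ≤ n) (A : GL (Fin k) F) :
    ((topGL k hkn A : GL (Fin n) F) : Matrix (Fin n) (Fin n) F) = topMat k hkn (A : Matrix (Fin k) (Fin k) F) :=
  rfl

theorem glmul_apply (a b : GL (Fin n) F) (i j : Fin n) :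
    ((a * b : GL (Fin n) F) : Matrix (Fin n) (Fin n) F) i j
      = ∑ l, (a : Matrix (Fin n) (Fin n) F) i l * (b : Matrix (Fin n) (Fin n) F) l j := by
  rw [Units.val_mul, Matrix.mul_apply]

theorem topGL_mul_low {k : ℕ} (hkn : k ≤ n) (A : GL (Fin k) F) (g : GL (Fin n) F) {i : Fin n} (hi : k ≤ i.val)
    (j : Fin n) : ((topGL k hkn A * g : GL (Fin n) F) : Matrix (Fin n) (Fin n) F) i j
      = (g : Matrix (Fin n) (Fin n) F) i j := by
  rw [Units.val_mul, Matrix.mul_apply, Finset.sum_eq_single i]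
  · rw [coe_topGL, topMat_apply, dif_neg (fun h => absurd h.1 (not_lt.2 hi)), Matrix.one_apply_eq,
      one_mul]
  · intro l _ hl
    rw [coe_topGL, topMat_apply, dif_neg (fun h => absurd h.1 (not_lt.2 hi)),
      Matrix.one_apply_ne (Ne.symm hl), zero_mul]
  · simp

theorem mul_topGL_high {k : ℕ} (hkn : k ≤ n) (A : GL (Fin k) F) (g : GL (Fin n) F) (i : Fin n) {j : Fin n}
    (hj : k ≤ j.val) : ((g * topGL k hkn A : GL (Fin n) F) : Matrix (Fin n) (Fin n) F) i j
      = (g : Matrix (Fin n) (Fin n) F) i j := by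
  rw [Units.val_mul, Matrix.mul_apply, Finset.sum_eq_single j]
  · rw [coe_topGL, topMat_apply, dif_neg (fun h => absurd h.2 (not_lt.2 hj)), Matrix.one_apply_eq,
      mul_one]
  · intro l _ hl
    rw [coe_topGL, topMat_apply, dif_neg (fun h => absurd h.2 (not_lt.2 hj)),
      Matrix.one_apply_ne hl, mul_zero]
  · simp

theorem topGL_conj_high {k : ℕ} (hkn : k ≤ n) (A : GL (Fin k) F) (g : GL (Fin n) F) (i : Fin n) {j : Fin n}
    (hj : k ≤ j.val) :
    ((topGL k hkn A * g * (topGL k hkn A)⁻¹ : GL (Fin n) F) : Matrix (Fin n) (Fin n) F) i j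
      = ((topGL k hkn A * g : GL (Fin n) F) : Matrix (Fin n) (Fin n) F) i j := by
  rw [← map_inv, mul_topGL_high hkn _ _ _ hj]

theorem topGL_conj_pat {k : ℕ} (hkn : k ≤ n) (A : GL (Fin k) F) {g : GL (Fin n) F} (hg : Pat (colPat k) g) :
    Pat (colPat k) (topGL k hkn A * g * (topGL k hkn A)⁻¹) := by
  intro i j hij
  rcases lt_or_ge j.val k with hj | hj
  · have hz : ∀ B : GL (Fin k) F, ∀ l, k ≤ l.val →
        ((topGL k hkn B : GL (Fin n) F) : Matrix (Fin n) (Fin n) F) l j = 0 := fun B l hl => by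
      rw [coe_topGL, topMat_apply, dif_neg (fun h => absurd h.1 (not_lt.2 hl)), Matrix.one_apply_ne]
      rintro rfl
      omega
    have hgh : ∀ m l : Fin n, l.val < k →
        ((topGL k hkn A * g : GL (Fin n) F) : Matrix (Fin n) (Fin n) F) m l
          = ((topGL k hkn A : GL (Fin n) F) : Matrix (Fin n) (Fin n) F) m l := fun m l hl => by
      rw [Units.val_mul, Matrix.mul_apply, Finset.sum_eq_single l]
      · rw [col_eq_one hg hl, Matrix.one_apply_eq, mul_one]
      · intro p _ hp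
        rw [col_eq_one hg hl, Matrix.one_apply_ne hp, mul_zero]
      · simp
    have h1 : ((topGL k hkn A * g * (topGL k hkn A)⁻¹ : GL (Fin n) F) : Matrix (Fin n) (Fin n) F) i j
        = ((topGL k hkn A * (topGL k hkn A)⁻¹ : GL (Fin n) F) : Matrix (Fin n) (Fin n) F) i j := by
      rw [glmul_apply (topGL k hkn A * g), glmul_apply (topGL k hkn A)]
      refine Finset.sum_congr rfl fun l _ => ?_
      rw [← map_inv]
      rcases lt_or_ge l.val k with hl | hl
      · rw [hgh i l hl]
      · rw [hz _ l hl, mul_zero, mul_zero]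
    rw [h1, mul_inv_cancel, Units.val_one]
  · have hji : ¬ i < j := fun h => hij ⟨h, hj⟩
    have hi : k ≤ i.val := le_trans hj (Fin.le_def.1 (not_lt.1 hji))
    rw [topGL_conj_high hkn _ _ _ hj, topGL_mul_low hkn _ _ hi, hg i j hij]

theorem col_topGL_conj {k : ℕ} (hkn : k ≤ n) (hk : k < n) (A : GL (Fin k) F) {g : GL (Fin n) F}
    (hg : Pat (colPat k) g) :
    col hk (topGL k hkn A * g * (topGL k hkn A)⁻¹) = (A : Matrix (Fin k) (Fin k) F) *ᵥ col hk g := by
  funext i
  simp only [col, Matrix.mulVec, dotProduct]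
  rw [topGL_conj_high (k := k) hkn _ _ _ le_rfl, Units.val_mul, Matrix.mul_apply]
  symm
  refine Finset.sum_of_injOn (fun l : Fin k => (⟨l, l.isLt.trans hk⟩ : Fin n)) ?_ (fun l _ => by simp) ?_ ?_
  · intro a _ b _ h
    exact Fin.ext (by simpa using congrArg Fin.val h)
  · intro l _ hl
    have hlk : k ≤ l.val := not_lt.1 fun h => hl ⟨⟨l, h⟩, Finset.mem_univ _, Fin.ext rfl⟩
    rw [coe_topGL, topMat_apply, dif_neg (fun h => absurd h.2 (not_lt.2 hlk)), Matrix.one_apply_ne,
      zero_mul]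
    intro e
    rw [← e] at hlk
    exact absurd i.isLt (not_lt.2 hlk)
  · intro l _
    rw [coe_topGL, topMat_apply, dif_pos ⟨i.isLt, l.isLt⟩]

theorem supdLow_topGL_conj {k : ℕ} (hkn : k ≤ n) (A : GL (Fin k) F) (g : GL (Fin n) F) :
    supdLow k (topGL k hkn A * g * (topGL k hkn A)⁻¹) = supdLow k g := by
  refine Finset.sum_congr rfl fun i _ => Finset.sum_congr rfl fun j _ => ?_
  split_ifs with h
  · have hj : k ≤ j.val := by
      have h1 : i.val + 1 = j.val := h.1
      omega
    rw [topGL_conj_high hkn _ _ _ hj, topGL_mul_low hkn _ _ h.2]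
  · rfl

/-! ## The recursion -/

/-- Averages along the tower. -/
def towerAvg (φ : AddChar F ℂ) (χ : GL (Fin n) F → ℂ) (k : ℕ) : ℂ :=
  (psum (colPat k) fun _ : GL (Fin n) F => (1 : ℂ))⁻¹ *
    psum (colPat k) fun g => χ g * φ (-supd g)

/-- Averages twisted by a character of the new column. -/
def colAvg (φ : AddChar F ℂ) (χ : GL (Fin n) F → ℂ) {k : ℕ} (hk : k < n) (l : Fin k → F) : ℂ :=
  (psum (colPat k) fun _ : GL (Fin n) F => (1 : ℂ))⁻¹ *
    psum (colPat k) fun g => χ g * φ (-(l ⬝ᵥ col hk g + supdLow k g))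

theorem psum_congr' {S : Fin n → Fin n → Prop} {f f' : GL (Fin n) F → ℂ}
    (h : ∀ g, Pat S g → f g = f' g) : psum S f = psum S f' :=
  Finset.sum_congr rfl fun g _ => by split_ifs with hg <;> [exact h g hg; rfl]

theorem sum_colAvg {φ : AddChar F ℂ} (hφ : φ ≠ 1) (χ : GL (Fin n) F → ℂ) {k : ℕ} (hk : k < n) :
    ∑ l, colAvg φ χ hk l = towerAvg φ χ (k + 1) := by
  have horth : ∀ v : Fin k → F, ∑ l : Fin k → F, φ (-(l ⬝ᵥ v))
      = if v = 0 then (Fintype.card F : ℂ) ^ k else 0 := by
    intro v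
    split_ifs with hv
    · simp [hv, AddChar.map_zero_eq_one]
    · let θ : AddChar (Fin k → F) ℂ :=
        { toFun := fun l => φ (-(l ⬝ᵥ v))
          map_zero_eq_one' := by simp [AddChar.map_zero_eq_one]
          map_add_eq_mul' := fun a b => by
            rw [add_dotProduct, neg_add, AddChar.map_add_eq_mul] }
      show ∑ l, θ l = 0
      obtain ⟨t, ht⟩ := AddChar.ne_one_iff.1 hφ
      obtain ⟨i, hi⟩ : ∃ i, v i ≠ 0 := Function.ne_iff.1 hv
      refine AddChar.sum_eq_zero_of_ne_one (AddChar.ne_one_iff.2 ⟨Pi.single i (-t / v i), ?_⟩)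
      show φ (-(Pi.single i (-t / v i) ⬝ᵥ v)) ≠ 1
      rwa [single_dotProduct, div_mul_cancel₀ _ hi, neg_neg]
  have hQ : (Fintype.card F : ℂ) ^ k ≠ 0 := pow_ne_zero _ (Nat.cast_ne_zero.2 Fintype.card_ne_zero)
  simp only [colAvg, ← Finset.mul_sum]
  rw [towerAvg, psum_one_succ hk, mul_inv, mul_comm ((Fintype.card F : ℂ) ^ k)⁻¹, mul_assoc]
  congr 1
  rw [inv_mul_eq_iff_eq_mul₀ hQ]
  simp only [psum]
  rw [Finset.mul_sum, Finset.sum_comm]
  refine Finset.sum_congr rfl fun g _ => ?_
  by_cases hg : Pat (colPat k) g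
  · simp only [hg, if_true, neg_add, AddChar.map_add_eq_mul]
    rw [← Finset.mul_sum, ← Finset.sum_mul, horth]
    by_cases hc : col hk g = 0
    · have hlow : supd g = supdLow k g := by
        rcases Nat.eq_zero_or_pos k with rfl | hk0
        · simp [supd, supdLow]
        · rw [supd_eq_supdLow_add hk0 hk hg, hc, Pi.zero_apply, zero_add]
      rw [if_pos hc, if_pos ((pat_succ_iff hk g).2 ⟨hg, hc⟩), hlow]
      ring
    · rw [if_neg hc, if_neg (fun h => hc ((pat_succ_iff hk g).1 h).2)]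
      ring
  · rw [if_neg (fun h => hg ((pat_succ_iff hk g).1 h).1), mul_zero]
    simp [hg]

theorem colAvg_last {φ : AddChar F ℂ} (χ : GL (Fin n) F → ℂ) {k : ℕ} (hk0 : 0 < k) (hk : k < n) :
    colAvg φ χ hk (Pi.single ⟨k - 1, by omega⟩ 1) = towerAvg φ χ k := by
  rw [colAvg, towerAvg]
  congr 1
  exact psum_congr' fun g hg => by rw [single_dotProduct, one_mul, ← supd_eq_supdLow_add hk0 hk hg]

theorem colAvg_conj {φ : AddChar F ℂ} {χ : GL (Fin n) F → ℂ} (hχ : Cfsg.IsClassFunction _ χ) {k : ℕ}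
    (hk : k < n) (A : GL (Fin k) F) (l : Fin k → F) :
    colAvg φ χ hk l = colAvg φ χ hk (l ᵥ* (A : Matrix (Fin k) (Fin k) F)) := by
  have hkn : k ≤ n := hk.le
  rw [colAvg, colAvg]
  congr 1
  symm
  rw [psum, psum]
  refine Fintype.sum_equiv (MulAut.conj (topGL k hkn A : GL (Fin n) F)).toEquiv _ _ fun g => ?_
  have e : (MulAut.conj (topGL k hkn A : GL (Fin n) F)).toEquiv g = topGL k hkn A * g * (topGL k hkn A)⁻¹ := rfl
  rw [e]
  have hiff : Pat (colPat k) (topGL k hkn A * g * (topGL k hkn A)⁻¹) ↔ Pat (colPat k) g := by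
    refine ⟨fun h => ?_, topGL_conj_pat hkn A⟩
    have := topGL_conj_pat hkn A⁻¹ h
    simpa [map_inv, mul_assoc] using this
  by_cases hg : Pat (colPat k) g
  · rw [if_pos hg, if_pos (hiff.2 hg), hχ, col_topGL_conj hkn hk A hg, supdLow_topGL_conj hkn,
      Matrix.dotProduct_mulVec]
  · rw [if_neg hg, if_neg (fun h => hg (hiff.1 h))]

theorem colAvg_zero {φ : AddChar F ℂ} {χ : GL (Fin n) F → ℂ} (hχ : Cfsg.IsCharacter _ χ)
    (hc : IsCusp χ) {k : ℕ} (hk0 : 0 < k) (hk : k < n) : colAvg φ χ hk 0 = 0 := by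
  rw [colAvg]
  refine mul_eq_zero_of_right _ ?_
  set L : Finset (Fin n) := univ.filter fun i => i.val < k with hL
  let V : Subgroup (GL (Fin n) F) := pat (cut L) (cut_trans L)
  have hcut : ∀ i j, cut L i j ↔ i.val < k ∧ k ≤ j.val := fun i j => by simp [cut, hL]
  have hsum : ∑ v : V, χ v = 0 := by
    rw [← psum_eq]
    refine hc L ⟨⟨0, hk0.trans hk⟩, by simp [hL, hk0]⟩ fun e => ?_
    have : (⟨k, hk⟩ : Fin n) ∈ L := by rw [e]; simp
    simp [hL] at this
  have hVU : ∀ v : V, Pat (colPat k) (v : GL (Fin n) F) := fun v i j hij => v.2 i j fun h => by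
    rw [hcut] at h
    exact hij ⟨Fin.lt_def.2 (by omega), h.2⟩
  have hlow : ∀ v : V, supdLow k (v : GL (Fin n) F) = 0 := fun v =>
    Finset.sum_eq_zero fun i _ => Finset.sum_eq_zero fun j _ => by
      split_ifs with h
      · rw [v.2 i j (fun h' => by rw [hcut] at h'; omega), Matrix.one_apply_ne h.1.lt.ne]
      · rfl
  simp only [zero_dotProduct, zero_add]
  set S := psum (colPat k) (fun g => χ g * φ (-supdLow k g)) with hS
  have key : ∀ v : V, S = psum (colPat k) fun g => χ (g * (v : GL (Fin n) F)) * φ (-supdLow k g) := by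
    intro v
    rw [hS, psum, psum]
    symm
    refine Fintype.sum_equiv (Equiv.mulRight (v : GL (Fin n) F)) _ _ fun g => ?_
    by_cases hg : Pat (colPat k) g
    · have h' : Pat (colPat k) (g * (v : GL (Fin n) F)) := pat_mul (colPat_trans k) hg (hVU v)
      refine (if_pos hg).trans (Eq.trans ?_ (if_pos (show Pat (colPat k)
        (Equiv.mulRight (v : GL (Fin n) F) g) from h')).symm)
      show _ = χ (g * (v : GL (Fin n) F)) * φ (-supdLow k (g * (v : GL (Fin n) F)))
      rw [supdLow_mul k (colPat_mem hg) (colPat_mem (hVU v)), hlow, add_zero]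
    · have h' : ¬ Pat (colPat k) (g * (v : GL (Fin n) F)) := by
        intro h
        apply hg
        have := pat_mul (colPat_trans k) h (hVU v⁻¹)
        simpa using this
      exact (if_neg hg).trans (if_neg (show ¬ Pat (colPat k)
        (Equiv.mulRight (v : GL (Fin n) F) g) from h')).symm
  have : (Fintype.card V : ℂ) * S = 0 := by
    rw [← Finset.card_univ, ← nsmul_eq_mul, ← Finset.sum_const,
      Finset.sum_congr rfl (fun v _ => key v)]
    simp only [psum]
    rw [Finset.sum_comm]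
    refine Finset.sum_eq_zero fun g _ => ?_
    split_ifs with hg
    · rw [← Finset.sum_mul, sum_coset_eq_zero' hχ V hsum, zero_mul]
    · exact Finset.sum_const_zero
  exact (mul_eq_zero.1 this).resolve_left (Nat.cast_ne_zero.2 Fintype.card_ne_zero)

theorem exists_gl_row {k : ℕ} (i₀ : Fin k) {l : Fin k → F} (hl : l ≠ 0) :
    ∃ A : GL (Fin k) F, Pi.single i₀ 1 ᵥ* (A : Matrix (Fin k) (Fin k) F) = l := by
  obtain ⟨p, hp⟩ : ∃ p, l p ≠ 0 := Function.ne_iff.1 hl
  let M : Matrix (Fin k) (Fin k) F :=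
    Matrix.of fun i j => if i = i₀ then l j else (if Equiv.swap i₀ p i = j then 1 else 0)
  have hM : IsUnit M := by
    rw [← Matrix.mulVec_injective_iff_isUnit]
    intro x y hxy
    have hz : M *ᵥ (x - y) = 0 := by rw [Matrix.mulVec_sub]; exact sub_eq_zero.2 hxy
    have hne : ∀ j, j ≠ p → (x - y) j = 0 := by
      intro j hj
      have hij : Equiv.swap i₀ p j ≠ i₀ := fun e => hj (by
        have := congrArg (Equiv.swap i₀ p) e
        simpa using this)
      have := congrFun hz (Equiv.swap i₀ p j)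
      simpa [M, Matrix.mulVec, dotProduct, hij, ite_mul] using this
    have hp' : (x - y) p = 0 := by
      have := congrFun hz i₀
      simp only [M, Matrix.mulVec, dotProduct, Matrix.of_apply, if_true, Pi.zero_apply] at this
      rw [Finset.sum_eq_single p (fun j _ hj => by rw [hne j hj, mul_zero]) (by simp)] at this
      exact (mul_eq_zero.1 this).resolve_left hp
    refine sub_eq_zero.1 (funext fun j => ?_)
    rcases eq_or_ne j p with rfl | hj
    · exact hp'
    · exact hne j hj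
  refine ⟨hM.unit, funext fun j => ?_⟩
  simp [Matrix.single_one_vecMul, M]

theorem towerAvg_succ {φ : AddChar F ℂ} (hφ : φ ≠ 1) {χ : GL (Fin n) F → ℂ}
    (hχ : Cfsg.IsCharacter _ χ) (hc : IsCusp χ) {k : ℕ} (hk0 : 0 < k) (hk : k < n) :
    towerAvg φ χ (k + 1) = ((Fintype.card F : ℂ) ^ k - 1) * towerAvg φ χ k := by
  have hne : ∀ l : Fin k → F, l ≠ 0 → colAvg φ χ hk l = towerAvg φ χ k := by
    intro l hl
    obtain ⟨A, hA⟩ := exists_gl_row ⟨k - 1, by omega⟩ hl
    rw [← colAvg_last χ hk0 hk, colAvg_conj (Chars.isClassFunction_of_isCharacter hχ) hk A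
      (Pi.single _ 1), hA]
  rw [← sum_colAvg hφ χ hk, ← Finset.add_sum_erase univ _ (Finset.mem_univ (0 : Fin k → F)),
    colAvg_zero hχ hc hk0 hk, zero_add,
    Finset.sum_congr rfl (fun l hl => hne l (Finset.ne_of_mem_erase hl)), Finset.sum_const,
    nsmul_eq_mul, Finset.card_erase_of_mem (Finset.mem_univ _), Finset.card_univ, Fintype.card_fun,
    Fintype.card_fin, Nat.cast_sub (Nat.one_le_pow _ _ Fintype.card_pos)]
  push_cast
  rfl

theorem towerAvg_top (φ : AddChar F ℂ) (χ : GL (Fin n) F → ℂ) : towerAvg φ χ n = χ 1 := by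
  have h : ∀ g : GL (Fin n) F, Pat (colPat n) g ↔ g = 1 := fun g =>
    ⟨fun h => Units.ext (Matrix.ext fun i j => by rw [col_eq_one h j.isLt, Units.val_one]),
      fun h => h ▸ fun i j _ => by rw [Units.val_one]⟩
  have h0 : supd (1 : GL (Fin n) F) = 0 := Finset.sum_eq_zero fun i _ => Finset.sum_eq_zero fun j _ => by
    split_ifs with h'
    · rw [Units.val_one, Matrix.one_apply_ne h'.lt.ne]
    · rfl
  simp [towerAvg, psum, h, h0, AddChar.map_zero_eq_one]

theorem towerAvg_one (φ : AddChar F ℂ) (χ : GL (Fin n) F → ℂ) : towerAvg φ χ 1 = wh φ χ := by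
  have h : ∀ g : GL (Fin n) F, Pat (colPat 1) g ↔ Pat (fun i j => i < j) g := fun g =>
    ⟨fun hg i j hij => hg i j fun h => hij h.1, fun hg i j hij => hg i j fun h => hij ⟨h, by
      have := Fin.lt_def.1 h
      omega⟩⟩
  have e : ∀ f : GL (Fin n) F → ℂ, psum (colPat 1) f = ∑ u : Uu F n, f u := fun f => by
    rw [show psum (colPat 1) f = psum (fun i j : Fin n => i < j) f from
      Finset.sum_congr rfl fun g _ => if_congr (h g) rfl rfl, psum_eq lt_trans']
    rfl
  rw [towerAvg, e, e, wh, Cfsg.classInner]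
  simp [psi, AddChar.map_neg_eq_inv, AddChar.inv_apply_eq_conj, Nat.card_eq_fintype_card]

/-- Gelfand's degree formula and genericity. -/
theorem wh_degree_cusp {φ : AddChar F ℂ} (hφ : φ ≠ 1) (hn : 0 < n) (χ : Cfsg.IrrCharacter (GL (Fin n) F))
    (hc : IsCusp (χ : GL (Fin n) F → ℂ)) :
    wh φ (χ : GL (Fin n) F → ℂ) = 1 ∧
      (χ : GL (Fin n) F → ℂ) 1 = ∏ i ∈ Finset.Ico 1 n, ((Fintype.card F : ℂ) ^ i - 1) := by
  have hrec : ∀ d k, 0 < k → k + d = n →
      (χ : GL (Fin n) F → ℂ) 1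
        = (∏ i ∈ Finset.Ico k n, ((Fintype.card F : ℂ) ^ i - 1)) * towerAvg φ (χ : GL (Fin n) F → ℂ) k := by
    intro d
    induction d with
    | zero =>
      intro k _ hk
      obtain rfl : k = n := by simpa using hk
      simp [towerAvg_top]
    | succ d ih =>
      intro k hk0 hk
      rw [ih (k + 1) (by omega) (by omega), towerAvg_succ hφ (isCharacter_coe χ) hc hk0 (by omega),
        Finset.prod_eq_prod_Ico_succ_bot (by omega : k < n)]
      ring
  have h := hrec (n - 1) 1 one_pos (by omega)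
  rw [towerAvg_one] at h
  obtain ⟨m, hm, hwh⟩ := wh_le_one hφ χ
  have hm1 : m = 1 := by
    rcases Nat.le_one_iff_eq_zero_or_eq_one.1 hm with rfl | rfl
    · exfalso
      rw [hwh, Nat.cast_zero, mul_zero] at h
      exact map_one_ne_zero χ h
    · rfl
  rw [hwh, hm1, Nat.cast_one, mul_one] at h
  exact ⟨by rw [hwh, hm1, Nat.cast_one], h⟩

end CfsgLib.GLCusp
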