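import Cfsg.Agent.GLCusp.GradedMultiset

/-!
# Counting monic irreducible polynomials
-/

set_option autoImplicit false

noncomputable section

namespace CfsgLib.GLCusp

open Polynomial UniqueFactorizationMonoid
open scoped Classical

variable (F : Type*) [Field F] [Fintype F]

/-- Monic irreducible polynomials other than `X`. -/
abbrev IrrPoly : Type _ := {P : F[X] // P.Monic ∧ Irreducible P ∧ P ≠ X}

/-- The degree. -/
abbrev pdeg (P : IrrPoly F) : ℕ := P.1.natDegree

theorem pdeg_pos (P : IrrPoly F) : 0 < pdeg F P := P.2.2.1.natDegree_pos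

/-- Monic polynomials of degree `n` with nonzero constant term. -/
abbrev MonicPoly (n : ℕ) : Type _ := {f : F[X] // f.Monic ∧ f.natDegree = n ∧ f.coeff 0 ≠ 0}

/-- Monic polynomials from their coefficients. -/
def monicEquiv (k : ℕ) : MonicPoly F (k + 1) ≃ Fˣ × (Fin k → F) where
  toFun f := (Units.mk0 (f.1.coeff 0) f.2.2.2, fun i => f.1.coeff (i.val + 1))
  invFun x := ⟨X ^ (k + 1) + ∑ j : Fin (k + 1), C ((Fin.cons (x.1 : F) x.2 : Fin (k + 1) → F) j) * X ^ j.val, by
    set q := ∑ j : Fin (k + 1), C ((Fin.cons (x.1 : F) x.2 : Fin (k + 1) → F) j) * X ^ j.val with hq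
    have hdeg : q.degree < ((k + 1 : ℕ) : WithBot ℕ) := Polynomial.degree_sum_fin_lt _
    have hm : (X ^ (k + 1) + q).Monic := monic_X_pow_add hdeg
    refine ⟨hm, ?_, ?_⟩
    · refine natDegree_eq_of_degree_eq_some ?_
      rw [degree_add_eq_left_of_degree_lt (by rwa [degree_X_pow]), degree_X_pow]
    · rw [coeff_add, coeff_X_pow, if_neg (by omega), zero_add, hq, finsetSum_coeff,
        Finset.sum_eq_single 0]
      · simp
      · intro j _ hj
        have : (0 : ℕ) ≠ j.val := fun e => hj (Fin.ext e.symm)
        simp [coeff_C_mul, coeff_X_pow, this]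
      · simp⟩
  left_inv f := by
    obtain ⟨f, hm, hdeg, h0⟩ := f
    refine Subtype.ext ?_
    simp only
    conv_rhs => rw [hm.as_sum, hdeg, Finset.sum_range]
    congr 1
    refine Finset.sum_congr rfl fun j _ => ?_
    refine Fin.cases ?_ (fun i => ?_) j <;> simp
  right_inv x := by
    have hc : ∀ j : Fin (k + 1), (X ^ (k + 1) + ∑ i : Fin (k + 1),
        C ((Fin.cons (x.1 : F) x.2 : Fin (k + 1) → F) i) * X ^ i.val).coeff j.val
          = (Fin.cons (x.1 : F) x.2 : Fin (k + 1) → F) j := by
      intro j
      rw [coeff_add, coeff_X_pow, if_neg (by have := j.isLt; omega), zero_add, finsetSum_coeff,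
        Finset.sum_eq_single j]
      · simp
      · intro i _ hi
        have : j.val ≠ i.val := fun e => hi (Fin.ext e.symm)
        simp [coeff_C_mul, coeff_X_pow, this]
      · simp
    refine Prod.ext (Units.ext ?_) (funext fun i => ?_)
    · exact (hc 0).trans (Fin.cons_zero _ _)
    · exact (hc i.succ).trans (Fin.cons_succ _ _ _)

theorem card_monicPoly (k : ℕ) :
    Nat.card (MonicPoly F (k + 1)) = (Fintype.card F - 1) * Fintype.card F ^ k := by
  rw [Nat.card_congr (monicEquiv F k), Nat.card_prod, Nat.card_pi]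
  simp [Nat.card_eq_fintype_card, Fintype.card_units]

theorem finite_pdeg (m : ℕ) : Finite {P : IrrPoly F // pdeg F P = m} := by
  rcases m with _ | k
  · have : IsEmpty {P : IrrPoly F // pdeg F P = 0} := ⟨fun P => absurd P.2 (pdeg_pos F P.1).ne'⟩
    infer_instance
  · have hc : ∀ P : IrrPoly F, P.1.coeff 0 ≠ 0 := fun P h => P.2.2.2 (eq_of_monic_of_associated monic_X P.2.1
      (irreducible_X.associated_of_dvd P.2.2.1 (X_dvd_iff.2 h))).symm
    have : Finite (MonicPoly F (k + 1)) := Finite.of_equiv _ (monicEquiv F k).symm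
    exact Finite.of_injective (fun P => (⟨P.1.1, P.1.2.1, P.2, hc P.1⟩ : MonicPoly F (k + 1)))
      fun P Q h => Subtype.ext (Subtype.ext (congrArg (fun g : MonicPoly F (k + 1) => g.1) h :))

theorem card_MS_irrPoly (n : ℕ) :
    Nat.card (Graded.MS (pdeg F) n) = Nat.card (MonicPoly F n) := by
  have hc : ∀ P : IrrPoly F, P.1.coeff 0 ≠ 0 := fun P h => P.2.2.2 (eq_of_monic_of_associated monic_X P.2.1
    (irreducible_X.associated_of_dvd P.2.2.1 (X_dvd_iff.2 h))).symm
  refine Nat.card_eq_of_bijective (fun s => ⟨(s.1.map Subtype.val).prod, ?_, ?_, ?_⟩) ⟨?_, ?_⟩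
  · exact monic_multiset_prod_of_monic _ _ fun P _ => P.2.1
  · rw [natDegree_multiset_prod_of_monic _ (fun f hf => by
      obtain ⟨P, -, rfl⟩ := Multiset.mem_map.1 hf; exact P.2.1), Multiset.map_map]
    exact s.2
  · rw [coeff_zero_multiset_prod, Multiset.map_map]
    exact Multiset.prod_ne_zero fun h => by
      obtain ⟨P, -, hP⟩ := Multiset.mem_map.1 h
      exact hc P hP
  · intro s t h
    have h' : (s.1.map Subtype.val).prod = (t.1.map Subtype.val).prod := congrArg Subtype.val h
    have key : ∀ u : Graded.MS (pdeg F) n,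
        normalizedFactors (u.1.map Subtype.val).prod = u.1.map Subtype.val := fun u => by
      rw [normalizedFactors_prod_eq _ (fun f hf => by
        obtain ⟨P, -, rfl⟩ := Multiset.mem_map.1 hf; exact P.2.2.1)]
      conv_rhs => rw [← Multiset.map_id (u.1.map Subtype.val)]
      refine Multiset.map_congr rfl fun f hf => ?_
      obtain ⟨P, -, rfl⟩ := Multiset.mem_map.1 hf
      exact P.2.1.normalize_eq_self
    exact Subtype.ext (Multiset.map_injective Subtype.val_injective (by rw [← key, h', key]))
  · rintro ⟨f, hm, hdeg, h0⟩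
    have hf0 : f ≠ 0 := hm.ne_zero
    have hmem : ∀ P ∈ normalizedFactors f, P.Monic ∧ Irreducible P ∧ P ≠ X := by
      intro P hP
      have hirr := irreducible_of_normalized_factor P hP
      refine ⟨?_, hirr, ?_⟩
      · have h := normalize_normalized_factor P hP
        rw [← h]
        exact monic_normalize hirr.ne_zero
      · rintro rfl
        exact h0 (X_dvd_iff.1 (dvd_of_mem_normalizedFactors hP))
    let s : Multiset (IrrPoly F) := (normalizedFactors f).attach.map fun x => ⟨x.1, hmem x.1 x.2⟩
    have hs : s.map Subtype.val = normalizedFactors f := by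
      simp only [s, Multiset.map_map]
      exact Multiset.attach_map_val _
    have hprod : (normalizedFactors f).prod = f :=
      eq_of_monic_of_associated (by
        have := monic_multiset_prod_of_monic (normalizedFactors f) id (fun P hP => (hmem P hP).1)
        rwa [Multiset.map_id] at this) hm (prod_normalizedFactors hf0)
    refine ⟨⟨s, ?_⟩, Subtype.ext ((congrArg Multiset.prod hs).trans hprod)⟩
    rw [← hdeg]
    conv_rhs => rw [← hprod, natDegree_multiset_prod_of_monic _ (fun P hP => (hmem P hP).1), ← hs,
      Multiset.map_map]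
    rfl

/-- There are at least `φ(q^n − 1)/n` monic irreducible polynomials of degree `n`. -/
theorem totient_div_le (n : ℕ) (hn : 2 ≤ n) :
    Nat.totient (Fintype.card F ^ n - 1) / n ≤ Nat.card {P : IrrPoly F // pdeg F P = n} := by
  obtain ⟨p, _⟩ := CharP.exists F
  have : Fact p.Prime := ⟨CharP.char_is_prime F p⟩
  have : NeZero n := ⟨by omega⟩
  let E := FiniteField.Extension F p n
  have : Finite E := Module.finite_of_finite F
  let _ : Fintype E := Fintype.ofFinite E
  have hcardE : Fintype.card E = Fintype.card F ^ n := by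
    rw [← Nat.card_eq_fintype_card, ← Nat.card_eq_fintype_card, FiniteField.natCard_extension]
  have hfin : Finite {P : IrrPoly F // pdeg F P = n} := finite_pdeg F n
  let _ : Fintype {P : IrrPoly F // pdeg F P = n} := Fintype.ofFinite _
  let S : Finset Eˣ := Finset.univ.filter fun x => orderOf x = Fintype.card F ^ n - 1
  have hS : S.card = Nat.totient (Fintype.card F ^ n - 1) := by
    simp only [S]
    refine IsCyclic.card_orderOf_eq_totient ?_
    rw [Fintype.card_units, hcardE]
  have hint : ∀ x : E, IsIntegral F x := fun x => IsIntegral.of_finite F x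
  have htop : ∀ x ∈ S, IntermediateField.adjoin F {((x : Eˣ) : E)} = ⊤ := by
    intro x hx
    have hx' : orderOf x = Fintype.card F ^ n - 1 := (Finset.mem_filter.1 hx).2
    have hz : Subgroup.zpowers x = ⊤ :=
      Subgroup.eq_top_of_card_eq _ (by
        rw [Nat.card_zpowers, hx', Nat.card_eq_fintype_card, Fintype.card_units, hcardE])
    rw [eq_top_iff]
    intro y _
    rcases eq_or_ne y 0 with rfl | hy
    · exact zero_mem _
    · obtain ⟨k, hk⟩ := Subgroup.mem_zpowers_iff.1 (show Units.mk0 y hy ∈ Subgroup.zpowers x by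
        rw [hz]; exact Subgroup.mem_top _)
      have : y = ((x : Eˣ) : E) ^ k := by
        rw [← Units.val_zpow_eq_zpow_val, hk]; rfl
      rw [this]
      exact zpow_mem (IntermediateField.mem_adjoin_simple_self F _) k
  have hdeg : ∀ x ∈ S, (minpoly F ((x : Eˣ) : E)).natDegree = n := by
    intro x hx
    rw [← IntermediateField.adjoin.finrank (hint _), htop x hx, IntermediateField.finrank_top',
      FiniteField.finrank_extension]
  let f : (x : Eˣ) → x ∈ S → {P : IrrPoly F // pdeg F P = n} := fun x hx =>
    ⟨⟨minpoly F ((x : Eˣ) : E), minpoly.monic (hint _), minpoly.irreducible (hint _), fun e => by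
      have := hdeg x hx
      rw [e, natDegree_X] at this
      omega⟩, hdeg x hx⟩
  let g : Eˣ → Option {P : IrrPoly F // pdeg F P = n} := fun x =>
    if hx : x ∈ S then some (f x hx) else none
  have hle : S.card ≤ n * (Finset.univ : Finset {P : IrrPoly F // pdeg F P = n}).card := by
    rw [← Finset.card_attach]
    refine Finset.card_le_mul_card_image_of_maps_to (f := fun x : {x // x ∈ S} => f x.1 x.2)
      (fun _ _ => Finset.mem_univ _) n fun P _ => ?_
    refine le_trans ?_ ((Polynomial.card_roots' (P.1.1.map (algebraMap F E))).trans_eq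
      ((Polynomial.natDegree_map _).trans P.2))
    refine le_trans ?_ (Multiset.toFinset_card_le _)
    refine Finset.card_le_card_of_injOn (fun x => ((x.1 : Eˣ) : E)) (fun x hx => ?_) fun x _ y _ e =>
      Subtype.ext (Units.ext e)
    rw [Finset.mem_coe, Multiset.mem_toFinset, mem_roots (map_ne_zero P.1.2.1.ne_zero), IsRoot,
      eval_map_algebraMap]
    rw [← (Finset.mem_filter.1 hx).2]
    exact minpoly.aeval F _
  rw [hS, Finset.card_univ, ← Nat.card_eq_fintype_card (α := {P : IrrPoly F // pdeg F P = n})] at hle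
  exact Nat.div_le_of_le_mul hle

end CfsgLib.GLCusp
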