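import Cfsg.Agent.GLCusp.Exist
import Cfsg.Agent.GLCusp.Degree
import Cfsg.Agent.GLCusp.MonicCount

/-!
# The number of cuspidal characters
-/

set_option autoImplicit false

noncomputable section

namespace CfsgLib.GLCusp

open Matrix Finset CfsgLib.Chars CfsgLib.Chars.Induced
open scoped Classical ComplexConjugate

variable {F : Type*} [Field F] [Fintype F] [DecidableEq F] {n : ℕ}

/-- Cuspidal labels of positive degree. -/
abbrev CLab (F : Type*) [Field F] [Fintype F] [DecidableEq F] : Type _ :=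
  {L : Lab F // 0 < L.1 ∧ IsCusp (L.2 : GL (Fin L.1) F → ℂ)}

/-- Block structure with prescribed sizes. -/
def blkOf {r : ℕ} (m : Fin r → ℕ) (hm : ∀ a, 0 < m a) (hsum : ∑ a, m a = n) : Blk n where
  r := r
  β i := (finSigmaFinEquiv.symm (Fin.cast hsum.symm i)).1
  mono := by
    intro i j hij
    by_contra hlt
    rw [not_le] at hlt
    obtain ⟨⟨a, k⟩, ha⟩ : ∃ x, finSigmaFinEquiv x = Fin.cast hsum.symm i := ⟨_, Equiv.apply_symm_apply _ _⟩
    obtain ⟨⟨b, l⟩, hb⟩ : ∃ x, finSigmaFinEquiv x = Fin.cast hsum.symm j := ⟨_, Equiv.apply_symm_apply _ _⟩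
    simp only at hlt
    rw [← ha, ← hb, Equiv.symm_apply_apply, Equiv.symm_apply_apply] at hlt
    have h1 := congrArg Fin.val ha
    have h2 := congrArg Fin.val hb
    rw [finSigmaFinEquiv_apply] at h1 h2
    simp only [Fin.val_cast] at h1 h2
    have key : ∀ c : Fin r, ∑ x : Fin c.val, m (Fin.castLE c.2.le x) = ∑ x ∈ univ.filter (· < c), m x := by
      intro c
      rw [show univ.filter (· < c) = univ.map ⟨Fin.castLE c.2.le, Fin.castLE_injective _⟩ from ?_,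
        Finset.sum_map]
      · rfl
      · ext x
        simp only [mem_filter, mem_univ, true_and, mem_map, Function.Embedding.coeFn_mk]
        exact ⟨fun hx => ⟨⟨x, hx⟩, Fin.ext rfl⟩, by rintro ⟨y, rfl⟩; exact y.2⟩
    have h3 : ∑ x ∈ univ.filter (· < b), m x + m b ≤ ∑ x ∈ univ.filter (· < a), m x := by
      rw [add_comm, ← Finset.sum_insert (s := univ.filter (· < b)) (by simp)]
      refine Finset.sum_le_sum_of_subset fun x hx => ?_
      simp only [mem_insert, mem_filter, mem_univ, true_and] at hx ⊢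
      rcases hx with rfl | hx
      · exact hlt
      · exact hx.trans hlt
    rw [key] at h1 h2
    have := l.isLt
    have hij' : i.val ≤ j.val := hij
    omega
  surj a := ⟨Fin.cast hsum (finSigmaFinEquiv ⟨a, ⟨0, hm a⟩⟩), by simp⟩

theorem blkOf_s {r : ℕ} (m : Fin r → ℕ) (hm : ∀ a, 0 < m a) (hsum : ∑ a, m a = n) (a : Fin r) :
    (blkOf m hm hsum).s a = m a := by
  have e : (univ.filter fun i : Fin n => (blkOf m hm hsum).β i = a) =
      univ.map ⟨fun k : Fin (m a) => Fin.cast hsum (finSigmaFinEquiv ⟨a, k⟩), fun k l h => by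
        simpa using h⟩ := by
    ext i
    simp only [mem_filter, mem_univ, true_and, mem_map, Function.Embedding.coeFn_mk]
    constructor
    · intro h
      obtain ⟨⟨b, k⟩, hb⟩ : ∃ x, finSigmaFinEquiv x = Fin.cast hsum.symm i :=
        ⟨_, Equiv.apply_symm_apply _ _⟩
      have hba : b = a := by
        rw [← h]
        show b = (finSigmaFinEquiv.symm (Fin.cast hsum.symm i)).1
        rw [← hb, Equiv.symm_apply_apply]
      subst hba
      exact ⟨k, (congrArg (Fin.cast hsum) hb).trans (Fin.ext rfl)⟩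
    · rintro ⟨k, rfl⟩
      show (finSigmaFinEquiv.symm (Fin.cast hsum.symm (Fin.cast hsum (finSigmaFinEquiv ⟨a, k⟩)))).1 = a
      rw [Fin.cast_cast, Fin.cast_eq_self, Equiv.symm_apply_apply]
  unfold Blk.s
  refine Eq.trans ?_ ((congrArg Finset.card e).trans ((Finset.card_map _).trans
    ((Finset.card_univ).trans (Fintype.card_fin _))))
  convert rfl

theorem lab_cast {m m' : ℕ} (h : m' = m) (δ : Cfsg.IrrCharacter (GL (Fin m) F))
    (hδ : IsCusp (δ : GL (Fin m) F → ℂ)) : ∃ δ' : Cfsg.IrrCharacter (GL (Fin m') F),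
      IsCusp (δ' : GL (Fin m') F → ℂ) ∧ (⟨m', δ'⟩ : Lab F) = ⟨m, δ⟩ := by
  subst h
  exact ⟨δ, hδ, rfl⟩

/-- The labels of a cuspidal system. -/
def cusLabels {B : Blk n} (δ : B.Sys F) (hδ : B.CuspSys δ) : Multiset (CLab F) :=
  univ.val.map fun a => ⟨B.lab δ a, B.s_pos a, hδ a⟩

theorem cusLabels_map {B : Blk n} (δ : B.Sys F) (hδ : B.CuspSys δ) :
    (cusLabels δ hδ).map Subtype.val = B.labels δ := by
  rw [cusLabels, Multiset.map_map]
  rfl

theorem sum_s (B : Blk n) : ∑ a, B.s a = n := by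
  have := Finset.card_eq_sum_card_fiberwise (f := B.β) (s := univ) (t := univ) (fun x _ => Finset.mem_univ _)
  simpa [Blk.s] using this.symm

theorem cusLabels_sum {B : Blk n} (δ : B.Sys F) (hδ : B.CuspSys δ) :
    ((cusLabels δ hδ).map fun L : CLab F => L.1.1).sum = n := by
  rw [cusLabels, Multiset.map_map]
  exact sum_s B

theorem exists_sys (s : Multiset (CLab F)) (hs : (s.map fun L : CLab F => L.1.1).sum = n) :
    ∃ (B : Blk n) (δ : B.Sys F) (hδ : B.CuspSys δ), cusLabels δ hδ = s := by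
  obtain ⟨l, rfl⟩ := Quot.exists_rep s
  have hsum : ∑ a : Fin l.length, (l.get a).1.1 = n := by
    rw [← hs]
    show _ = ((l : Multiset (CLab F)).map fun L : CLab F => L.1.1).sum
    rw [Multiset.map_coe, Multiset.sum_coe, ← List.sum_ofFn, ← List.ofFn_get (l.map _)]
    simp [List.ofFn_eq_map]
  set B := blkOf (fun a => (l.get a).1.1) (fun a => (l.get a).2.1) hsum with hB
  have hs' : ∀ a : Fin B.r, B.s a = (l.get a).1.1 := fun a => blkOf_s _ _ hsum a
  choose δ hδ hlab using fun a : Fin B.r => lab_cast (hs' a) (l.get a).1.2 (l.get a).2.2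
  refine ⟨B, δ, hδ, ?_⟩
  have : (fun a => (⟨B.lab δ a, B.s_pos a, hδ a⟩ : CLab F)) = fun a : Fin B.r => l.get a :=
    funext fun a => Subtype.ext (hlab a)
  show univ.val.map _ = _
  rw [this, Fin.univ_val_map]
  exact congrArg _ (List.ofFn_get l)

theorem classInner_R_gg_one {φ : AddChar F ℂ} (hφ : φ ≠ 1) {B : Blk n} (δ : B.Sys F)
    (hδ : B.CuspSys δ) : Cfsg.classInner (B.R δ) (gg φ n) = 1 := by
  rw [Blk.classInner_R_gg φ hφ δ]
  exact Finset.prod_eq_one fun a _ => (wh_degree_cusp hφ (B.s_pos a) (δ a) (hδ a)).1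

theorem exists_unique_generic {φ : AddChar F ℂ} (hφ : φ ≠ 1) {B : Blk n} (δ : B.Sys F)
    (hδ : B.CuspSys δ) : ∃! χ : Cfsg.IrrCharacter (GL (Fin n) F),
      wh φ (χ : GL (Fin n) F → ℂ) ≠ 0 ∧ Cfsg.classInner (B.R δ) (χ : GL (Fin n) F → ℂ) ≠ 0 := by
  have h := classInner_eq_sum (Chars.isClassFunction_of_isCharacter (B.isCharacter_R δ)) (gg φ n)
  rw [classInner_R_gg_one hφ δ hδ] at h
  have hnat : ∀ χ : Cfsg.IrrCharacter (GL (Fin n) F), ∃ c : ℕ,
      Cfsg.classInner (B.R δ) (χ : GL (Fin n) F → ℂ) * conj (Cfsg.classInner (gg φ n) (χ : GL (Fin n) F → ℂ)) = c ∧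
      (c ≠ 0 ↔ wh φ (χ : GL (Fin n) F → ℂ) ≠ 0 ∧ Cfsg.classInner (B.R δ) (χ : GL (Fin n) F → ℂ) ≠ 0) := by
    intro χ
    obtain ⟨c, hc⟩ := exists_nat_classInner (B.isCharacter_R δ) χ
    obtain ⟨m, -, hm⟩ := wh_le_one hφ χ
    refine ⟨c * m, ?_, ?_⟩
    · rw [hc, classInner_comm_conj, classInner_gg φ (isClassFunction_coe χ), hm]
      simp
    · rw [hc, hm, Nat.cast_ne_zero, Nat.cast_ne_zero, mul_ne_zero_iff]
      exact and_comm
  choose c hc hc' using hnat
  rw [Finset.sum_congr rfl (fun χ _ => hc χ), ← Nat.cast_sum, ← Nat.cast_one, Nat.cast_inj] at h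
  obtain ⟨χ₀, -, hχ₀⟩ := Finset.exists_ne_zero_of_sum_ne_zero (by rw [← h]; exact one_ne_zero :
    ∑ χ, c χ ≠ 0)
  refine ⟨χ₀, (hc' χ₀).1 hχ₀, fun χ hχ => ?_⟩
  by_contra hne
  have h1 : ∑ x ∈ ({χ, χ₀} : Finset (Cfsg.IrrCharacter (GL (Fin n) F))), c x ≤ ∑ x, c x :=
    Finset.sum_le_sum_of_subset (Finset.subset_univ _)
  rw [Finset.sum_pair hne] at h1
  have h2 := Nat.pos_of_ne_zero ((hc' χ).2 hχ)
  have h3 := Nat.pos_of_ne_zero hχ₀
  omega

theorem classInner_R_ne_zero_of_common {B B' : Blk n} (δ : B.Sys F) (δ' : B'.Sys F)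
    (χ : Cfsg.IrrCharacter (GL (Fin n) F)) (h : Cfsg.classInner (B.R δ) (χ : GL (Fin n) F → ℂ) ≠ 0)
    (h' : Cfsg.classInner (B'.R δ') (χ : GL (Fin n) F → ℂ) ≠ 0) :
    Cfsg.classInner (B.R δ) (B'.R δ') ≠ 0 := by
  choose c hc using fun χ => exists_nat_classInner (B.isCharacter_R δ) χ
  choose c' hc' using fun χ => exists_nat_classInner (B'.isCharacter_R δ') χ
  rw [classInner_eq_sum (Chars.isClassFunction_of_isCharacter (B.isCharacter_R δ)) (B'.R δ')]
  rw [Finset.sum_congr rfl (fun x _ => by rw [hc x, hc' x, map_natCast, ← Nat.cast_mul]),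
    ← Nat.cast_sum, Nat.cast_ne_zero]
  rw [hc, Nat.cast_ne_zero] at h
  rw [hc', Nat.cast_ne_zero] at h'
  intro e
  exact Nat.mul_ne_zero h h' (Finset.sum_eq_zero_iff.1 e χ (Finset.mem_univ χ))

/-- Generic characters correspond to multisets of cuspidal labels. -/
theorem card_MS_cusp {φ : AddChar F ℂ} (hφ : φ ≠ 1) (hn : 0 < n) :
    Nat.card (Graded.MS (fun L : CLab F => L.1.1) n) = Nat.card (RelData F n) := by
  rw [← card_generic hφ]
  symm
  let Gn := {χ : Cfsg.IrrCharacter (GL (Fin n) F) // wh φ (χ : GL (Fin n) F → ℂ) ≠ 0}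
  choose B δ hδ hsupp using fun χ : Gn => exists_support hn χ.1
  refine Nat.card_eq_of_bijective
    (fun χ : Gn => (⟨cusLabels (δ χ) (hδ χ), cusLabels_sum _ _⟩ : Graded.MS (fun L : CLab F => L.1.1) n))
    ⟨fun χ χ' e => ?_, fun s => ?_⟩
  · have e' : (B χ).labels (δ χ) = (B χ').labels (δ χ') := by
      rw [← cusLabels_map _ (hδ χ), ← cusLabels_map _ (hδ χ'),
        show cusLabels (δ χ) (hδ χ) = cusLabels (δ χ') (hδ χ') from congrArg Subtype.val e]
    have hR := Blk.R_eq_of_labels (δ χ) (hδ χ) (δ χ') (hδ χ') e'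
    obtain ⟨χ₀, -, huniq⟩ := exists_unique_generic hφ (δ χ) (hδ χ)
    exact Subtype.ext ((huniq χ.1 ⟨χ.2, hsupp χ⟩).trans
      (huniq χ'.1 ⟨χ'.2, by rw [hR]; exact hsupp χ'⟩).symm)
  · obtain ⟨B', δ', hδ', hs⟩ := exists_sys s.1 s.2
    obtain ⟨χ, ⟨hg, hne⟩, -⟩ := exists_unique_generic hφ δ' hδ'
    refine ⟨⟨χ, hg⟩, Subtype.ext ?_⟩
    have e : (B ⟨χ, hg⟩).labels (δ ⟨χ, hg⟩) = B'.labels δ' := by
      by_contra hne'
      exact classInner_R_ne_zero_of_common _ _ χ (hsupp ⟨χ, hg⟩) hne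
        (Blk.classInner_R_eq_zero _ (hδ _) δ' hδ' hne')
    rw [← cusLabels_map _ (hδ ⟨χ, hg⟩), ← cusLabels_map _ hδ'] at e
    rw [← hs]
    exact Multiset.map_injective Subtype.val_injective e

theorem finite_clab (m : ℕ) : Finite {L : CLab F // L.1.1 = m} := by
  have : ∀ L : {L : CLab F // L.1.1 = m}, ∃ δ : Cfsg.IrrCharacter (GL (Fin m) F), L.1.1 = ⟨m, δ⟩ := by
    rintro ⟨⟨⟨m', δ⟩, h⟩, hm⟩
    simp only at hm
    subst hm
    exact ⟨δ, rfl⟩
  choose f hf using this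
  exact Finite.of_injective f fun L L' e => Subtype.ext (Subtype.ext (by rw [hf L, hf L', e]))

/-- As many cuspidal characters as monic irreducible polynomials. -/
theorem card_cusp_eq_card_irrPoly (hn : 2 ≤ n) :
    Nat.card {χ : Cfsg.IrrCharacter (GL (Fin n) F) // IsCusp (χ : GL (Fin n) F → ℂ)}
      = Nat.card {P : IrrPoly F // pdeg F P = n} := by
  obtain ⟨φ, hφ⟩ : ∃ φ : AddChar F ℂ, φ ≠ 1 := by
    obtain ⟨ψ, hψ⟩ := AddChar.exists_apply_ne_zero.2 (one_ne_zero (α := F))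
    exact ⟨ψ, fun e => hψ (by rw [e]; rfl)⟩
  have h := Graded.card_fibre_eq (d := fun L : CLab F => L.1.1) (e := pdeg F) (fun L => L.2.1) (pdeg_pos F)
    finite_clab (finite_pdeg F) (fun k hk => ?_) n (le_trans (by norm_num) hn)
  · rw [← h]
    refine Nat.card_eq_of_bijective (fun χ => ⟨⟨⟨n, χ.1⟩, (show 0 < n by omega), χ.2⟩, rfl⟩) ⟨fun χ χ' e => ?_, ?_⟩
    · have : (⟨n, χ.1⟩ : Lab F) = ⟨n, χ'.1⟩ :=
        congrArg (fun L : {L : CLab F // L.1.1 = n} => L.1.1) e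
      exact Subtype.ext (eq_of_heq (Sigma.mk.inj this).2)
    · rintro ⟨⟨⟨m, δ⟩, hm0, hc⟩, hm⟩
      simp only at hm
      subst hm
      exact ⟨⟨δ, hc⟩, rfl⟩
  · obtain ⟨j, rfl⟩ : ∃ j, k = j + 1 := ⟨k - 1, by omega⟩
    rw [card_MS_cusp hφ hk, card_relData, card_MS_irrPoly, card_monicPoly]

/-- The count of cuspidal characters of the Gelfand degree. -/
theorem totient_div_le_card_cusp (hn : 2 ≤ n) :
    Nat.totient (Fintype.card F ^ n - 1) / n ≤
      Nat.card {χ : Cfsg.IrrCharacter (GL (Fin n) F) //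
        (χ : GL (Fin n) F → ℂ) 1 = ∏ i ∈ Finset.Ico 1 n, ((Fintype.card F : ℂ) ^ i - 1) ∧
        IsCusp (χ : GL (Fin n) F → ℂ)} := by
  obtain ⟨φ, hφ⟩ : ∃ φ : AddChar F ℂ, φ ≠ 1 := by
    obtain ⟨ψ, hψ⟩ := AddChar.exists_apply_ne_zero.2 (one_ne_zero (α := F))
    exact ⟨ψ, fun e => hψ (by rw [e]; rfl)⟩
  refine (totient_div_le F n hn).trans ?_
  rw [← card_cusp_eq_card_irrPoly hn]
  exact Nat.card_le_card_of_injective
    (fun χ => ⟨χ.1, (wh_degree_cusp hφ (by omega) χ.1 χ.2).2, χ.2⟩)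
    fun χ χ' e => Subtype.ext (congrArg Subtype.val e :)

end CfsgLib.GLCusp
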