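import Cfsg.Agent.GLCusp.Induce

/-!
# Every irreducible character has a cuspidal support
-/

set_option autoImplicit false

noncomputable section

namespace CfsgLib.GLCusp

open Matrix Finset CfsgLib.Chars CfsgLib.Chars.Induced
open scoped Classical ComplexConjugate

variable {F : Type*} [Field F] [Fintype F] [DecidableEq F] {n : ℕ}

namespace Blk

variable (B : Blk n)

/-- The Jacquet restriction. -/
def J (χ : GL (Fin n) F → ℂ) (m : B.M F) : ℂ :=
  (Nat.card {u : GL (Fin n) F // Pat B.U' u} : ℂ)⁻¹ *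
    ∑ u : {u : GL (Fin n) F // Pat B.U' u}, χ (B.emb m * u)

theorem card_P : Nat.card (B.P : Subgroup (GL (Fin n) F))
    = Nat.card (B.M F) * Nat.card {u : GL (Fin n) F // Pat B.U' u} := by
  rw [Nat.card_congr B.pEquiv, Nat.card_prod]

theorem isClassFunction_J {χ : GL (Fin n) F → ℂ} (hχ : Cfsg.IsClassFunction _ χ) :
    Cfsg.IsClassFunction (B.M F) (B.J χ) := by
  intro m c
  have hconj : ∀ u : GL (Fin n) F, Pat B.U' u → Pat B.U' (B.emb c * u * (B.emb c)⁻¹) := by
    intro u hu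
    have h1 := (B.projAll_eq_one_iff (⟨B.emb c, B.emb_mem c⟩ * ⟨u, B.U_mem_P hu⟩ *
      ⟨B.emb c, B.emb_mem c⟩⁻¹)).1 (by
        rw [map_mul, map_mul, map_inv, (B.projAll_eq_one_iff ⟨u, B.U_mem_P hu⟩).2 hu, mul_one,
          mul_inv_cancel])
    simpa using h1
  have hconj' : ∀ u : GL (Fin n) F, Pat B.U' u → Pat B.U' ((B.emb c)⁻¹ * u * B.emb c) := by
    intro u hu
    have h1 := (B.projAll_eq_one_iff (⟨B.emb c, B.emb_mem c⟩⁻¹ * ⟨u, B.U_mem_P hu⟩ *
      ⟨B.emb c, B.emb_mem c⟩)).1 (by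
        rw [map_mul, map_mul, map_inv, (B.projAll_eq_one_iff ⟨u, B.U_mem_P hu⟩).2 hu, mul_one,
          inv_mul_cancel])
    simpa using h1
  simp only [J]
  congr 1
  symm
  refine Fintype.sum_equiv
    { toFun := fun u => ⟨_, hconj u.1 u.2⟩
      invFun := fun u => ⟨_, hconj' u.1 u.2⟩
      left_inv := fun u => Subtype.ext (by simp [mul_assoc])
      right_inv := fun u => Subtype.ext (by simp [mul_assoc]) } _ _ fun u => ?_
  rw [← hχ (B.emb m * (u : GL (Fin n) F)) (B.emb c)]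
  congr 1
  simp only [Equiv.coe_fn_mk, map_mul, map_inv]
  group

theorem classInner_pFun_restrict (δ : B.Sys F) (χ : GL (Fin n) F → ℂ) :
    Cfsg.classInner (B.pFun δ) (fun g : (B.P : Subgroup (GL (Fin n) F)) => χ g)
      = Cfsg.classInner (B.prodFun δ) (B.J χ) := by
  rw [Cfsg.classInner, Cfsg.classInner, ← Equiv.sum_comp B.pEquiv.symm, Fintype.sum_prod_type,
    card_P, Nat.cast_mul, mul_inv, mul_assoc, Finset.mul_sum]
  congr 1
  refine Finset.sum_congr rfl fun m _ => ?_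
  rw [J, map_mul, map_inv₀, map_natCast, map_sum, mul_left_comm, Finset.mul_sum (a := B.prodFun δ m)]
  congr 1
  refine Finset.sum_congr rfl fun u _ => ?_
  have h1 : B.projAll (B.pEquiv.symm (m, u)) = m := congrArg Prod.fst (B.pEquiv.apply_symm_apply (m, u))
  rw [pFun, h1]
  rfl

theorem exists_nat_J (δ : B.Sys F) (χ : Cfsg.IrrCharacter (GL (Fin n) F)) :
    ∃ c : ℕ, Cfsg.classInner (B.prodFun δ) (B.J (χ : GL (Fin n) F → ℂ)) = c ∧
      Cfsg.classInner (B.R δ) (χ : GL (Fin n) F → ℂ) = c := by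
  obtain ⟨c, hc⟩ := exists_nat_classInner (B.isCharacter_R δ) χ
  refine ⟨c, ?_, hc⟩
  rw [← classInner_pFun_restrict, ← classInner_indFun _ _ (isClassFunction_coe χ)]
  exact hc

theorem J_one (χ : GL (Fin n) F → ℂ) :
    B.J χ 1 = (Nat.card {u : GL (Fin n) F // Pat B.U' u} : ℂ)⁻¹ * psum B.U' χ := by
  rw [J, psum, ← Finset.sum_filter, Finset.sum_subtype (p := Pat B.U') (F := inferInstance) _ (fun g => by simp)]
  simp

end Blk

/-- The trivial block structure. -/
def topBlk (n : ℕ) (hn : 0 < n) : Blk n where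
  r := 1
  β := fun _ => 0
  mono := fun _ _ _ => le_rfl
  surj := fun a => ⟨⟨0, hn⟩, Subsingleton.elim _ _⟩

namespace Blk

variable (B : Blk n)

/-- Split block `a` after position `m`. -/
def split (a : Fin B.r) (m : ℕ) (hm : 0 < m) (hms : m < B.s a) : Blk n where
  r := B.r + 1
  β := fun i => if B.β i < a ∨ (B.β i = a ∧ i < B.e a ⟨m, hms⟩) then (B.β i).castSucc else (B.β i).succ
  mono := by
    intro i j hij
    have h := B.mono hij
    simp only
    split_ifs with h1 h2 h2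
    · exact Fin.castSucc_le_castSucc_iff.2 h
    · exact (Fin.castSucc_le_castSucc_iff.2 h).trans (Fin.castSucc_le_succ _)
    · rcases h.lt_or_eq with hlt | heq
      · exact Fin.le_castSucc_iff.2 (Fin.succ_lt_succ_iff.2 hlt)
      · exfalso
        rcases h2 with h2 | ⟨h2, h3⟩
        · exact h1 (Or.inl (heq ▸ h2))
        · exact h1 (Or.inr ⟨heq.trans h2, hij.trans_lt h3⟩)
    · exact Fin.succ_le_succ_iff.2 h
  surj := by
    intro b
    rcases le_or_gt b.val a.val with hb | hb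
    · let b₀ : Fin B.r := ⟨b.val, hb.trans_lt a.isLt⟩
      refine ⟨B.e b₀ ⟨0, B.s_pos b₀⟩, ?_⟩
      simp only [B.β_e]
      rw [if_pos]
      · exact Fin.ext rfl
      · rcases hb.lt_or_eq with h | h
        · exact Or.inl h
        · have hb₀ : b₀ = a := Fin.ext h
          refine Or.inr ⟨hb₀, ?_⟩
          revert hb₀
          generalize b₀ = c
          rintro rfl
          exact (B.e _).strictMono (by simp [Fin.lt_def, hm])
    · obtain ⟨b₁, rfl⟩ : ∃ b₁ : Fin B.r, b = b₁.succ :=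
        ⟨⟨b.val - 1, by omega⟩, Fin.ext (by simp; omega)⟩
      simp only [Fin.val_succ] at hb
      have hab : a ≤ b₁ := Fin.le_def.2 (by omega)
      rcases hab.lt_or_eq with h | h
      · refine ⟨B.e b₁ ⟨0, B.s_pos b₁⟩, ?_⟩
        simp only [B.β_e]
        rw [if_neg (by rintro (h' | ⟨h', -⟩) <;> [exact lt_asymm h h'; exact h.ne' h'])]
      · subst h
        refine ⟨B.e a ⟨m, hms⟩, ?_⟩
        simp only [B.β_e]
        rw [if_neg (by simp)]

theorem split_U' (a : Fin B.r) (m : ℕ) (hm : 0 < m) (hms : m < B.s a) (i j : Fin n) :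
    (B.split a m hm hms).U' i j ↔ B.β i < B.β j ∨
      (B.β i = a ∧ B.β j = a ∧ i < B.e a ⟨m, hms⟩ ∧ B.e a ⟨m, hms⟩ ≤ j) := by
  simp only [U', split]
  constructor
  · intro h
    by_contra hc
    rw [not_or, not_lt] at hc
    split_ifs at h with h1 h2 h2
    · exact absurd (Fin.castSucc_lt_castSucc_iff.1 h) (not_lt.2 hc.1)
    · have he : B.β i = B.β j := le_antisymm (Fin.castSucc_lt_succ_iff.1 h) hc.1
      rcases h1 with h1 | ⟨h1, h1'⟩
      · exact h2 (Or.inl (he ▸ h1))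
      · exact hc.2 ⟨h1, he ▸ h1, h1', not_lt.1 fun hj => h2 (Or.inr ⟨he ▸ h1, hj⟩)⟩
    · exact absurd (lt_trans (Fin.castSucc_lt_succ (i := B.β i)) h)
        (not_lt.2 (Fin.castSucc_le_castSucc_iff.2 hc.1))
    · exact absurd (Fin.succ_lt_succ_iff.1 h) (not_lt.2 hc.1)
  · rintro (h | ⟨h1, h2, h3, h4⟩)
    · split_ifs with h1 h2 h2
      · exact Fin.castSucc_lt_castSucc_iff.2 h
      · exact (Fin.castSucc_lt_castSucc_iff.2 h).trans Fin.castSucc_lt_succ
      · exfalso
        apply h1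
        left
        rcases h2 with h2 | ⟨h2, -⟩
        · exact h.trans h2
        · exact h2 ▸ h
      · exact Fin.succ_lt_succ_iff.2 h
    · rw [if_pos (Or.inr ⟨h1, h3⟩), if_neg ?_, h1, h2]
      · exact Fin.castSucc_lt_succ
      · rintro (h' | ⟨-, h'⟩)
        · exact h'.ne h2
        · exact absurd h' (not_lt.2 h4)

/-- Summing over the radical of a split block. -/
theorem psum_split (χ : GL (Fin n) F → ℂ) (a : Fin B.r) (m : ℕ) (hm : 0 < m) (hms : m < B.s a) :
    psum (B.split a m hm hms).U' χ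
      = (Nat.card {u : GL (Fin n) F // Pat B.U' u} : ℂ) *
        psum (fun k l : Fin (B.s a) => k.val < m ∧ m ≤ l.val)
          (fun v => B.J χ (Pi.mulSingle a v)) := by
  set S : Fin (B.s a) → Fin (B.s a) → Prop := fun k l => k.val < m ∧ m ≤ l.val with hS
  have hN : (Nat.card {u : GL (Fin n) F // Pat B.U' u} : ℂ) ≠ 0 := by
    have : Nonempty {u : GL (Fin n) F // Pat B.U' u} := ⟨⟨1, fun i j _ => by simp⟩⟩
    exact Nat.cast_ne_zero.2 Nat.card_pos.ne'
  have h1 : psum (B.split a m hm hms).U' χ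
      = ∑ g : {g : GL (Fin n) F // Pat (B.split a m hm hms).U' g}, χ g := by
    rw [psum, ← Finset.sum_filter, Finset.sum_subtype (p := Pat (B.split a m hm hms).U') _ (fun g => by simp)]
  have h2 : psum S (fun v => B.J χ (Pi.mulSingle a v))
      = ∑ v : {v : GL (Fin (B.s a)) F // Pat S v}, B.J χ (Pi.mulSingle a v.1) := by
    rw [psum, ← Finset.sum_filter, Finset.sum_subtype (p := Pat S) _ (fun g => by simp)]
  rw [h1, h2]
  simp only [J]
  rw [← Finset.mul_sum, ← mul_assoc, mul_inv_cancel₀ hN, one_mul, ← Fintype.sum_prod_type']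
  have hemb : ∀ v : GL (Fin (B.s a)) F, Pat S v →
      Pat (B.split a m hm hms).U' (B.emb (Pi.mulSingle a v)) := by
    intro v hv i j hij
    rw [split_U'] at hij
    obtain ⟨⟨b, k⟩, rfl⟩ := B.idx.surjective i
    obtain ⟨⟨b', l⟩, rfl⟩ := B.idx.surjective j
    rw [B.idx_apply, B.idx_apply] at hij ⊢
    by_cases hb : b = b'
    · subst hb
      rw [emb_diag]
      have hone : (1 : Matrix (Fin n) (Fin n) F) (B.e b k) (B.e b l)
          = (1 : Matrix (Fin (B.s b)) (Fin (B.s b)) F) k l := by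
        simp [Matrix.one_apply]
      rw [hone]
      by_cases hba : b = a
      · subst hba
        rw [Pi.mulSingle_eq_same]
        refine hv k l fun hkl => hij (Or.inr ⟨B.β_e _ _, B.β_e _ _, ?_, ?_⟩)
        · exact (B.e _).lt_iff_lt.2 (Fin.lt_def.2 hkl.1)
        · exact (B.e _).le_iff_le.2 (Fin.le_def.2 hkl.2)
      · rw [Pi.mulSingle_eq_of_ne hba, Units.val_one]
    · rw [emb_off B _ (by rwa [B.β_e, B.β_e]), Matrix.one_apply_ne]
      intro e
      exact hb (B.e_inj e)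
  have hrad : ∀ u : GL (Fin n) F, Pat B.U' u → Pat (B.split a m hm hms).U' u := fun u hu i j hij =>
    hu i j fun h => hij ((split_U' B a m hm hms i j).2 (Or.inl h))
  symm
  refine Fintype.sum_bijective
    (fun x : {v : GL (Fin (B.s a)) F // Pat S v} × {u : GL (Fin n) F // Pat B.U' u} =>
      (⟨B.emb (Pi.mulSingle a x.1.1) * x.2.1,
        pat_mul (B.split a m hm hms).U'_trans (hemb _ x.1.2) (hrad _ x.2.2)⟩ :
          {g : GL (Fin n) F // Pat (B.split a m hm hms).U' g})) ⟨?_, ?_⟩ _ _ fun x => rfl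
  · rintro ⟨v, u⟩ ⟨v', u'⟩ h
    have h' : B.pEquiv.symm (Pi.mulSingle a v.1, u) = B.pEquiv.symm (Pi.mulSingle a v'.1, u') :=
      Subtype.ext (show B.emb (Pi.mulSingle a v.1) * u.1 = B.emb (Pi.mulSingle a v'.1) * u'.1 from
        congrArg Subtype.val h)
    have h'' := B.pEquiv.symm.injective h'
    simp only [Prod.mk.injEq] at h''
    exact Prod.ext (Subtype.ext (Pi.mulSingle_injective a h''.1)) h''.2
  · rintro ⟨g, hg⟩
    have hgP : g ∈ (B.P : Subgroup (GL (Fin n) F)) := by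
      intro i j hij
      rw [hg i j ?_, Matrix.one_apply_ne]
      · rintro rfl
        exact lt_irrefl _ hij
      · rw [split_U']
        rintro (h | ⟨h, h', -⟩)
        · exact lt_asymm h hij
        · exact hij.ne (h'.trans h.symm)
    have hblock : B.projAll ⟨g, hgP⟩ = Pi.mulSingle a (B.projAll ⟨g, hgP⟩ a) := by
      funext b
      by_cases hba : b = a
      · subst hba
        rw [Pi.mulSingle_eq_same]
      · rw [Pi.mulSingle_eq_of_ne hba]
        ext k l
        show g.val (B.e b k) (B.e b l) = _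
        rw [hg _ _ ?_, Units.val_one]
        · simp [Matrix.one_apply]
        · rw [split_U', B.β_e, B.β_e]
          rintro (h | ⟨h, -⟩)
          · exact lt_irrefl _ h
          · exact hba h
    have hv : Pat S (B.projAll ⟨g, hgP⟩ a) := by
      intro k l hkl
      show g.val (B.e a k) (B.e a l) = _
      rw [hg _ _ ?_]
      · simp [Matrix.one_apply]
      · rw [split_U', B.β_e]
        rintro (h | ⟨-, -, h1, h2⟩)
        · exact lt_irrefl _ (h.trans_eq (B.β_e a l))
        · exact hkl ⟨Fin.lt_def.1 ((B.e a).lt_iff_lt.1 h1), Fin.le_def.1 ((B.e a).le_iff_le.1 h2)⟩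
    refine ⟨(⟨_, hv⟩, (B.pEquiv ⟨g, hgP⟩).2), Subtype.ext ?_⟩
    show B.emb (Pi.mulSingle a (B.projAll ⟨g, hgP⟩ a)) * ((B.emb (B.projAll ⟨g, hgP⟩))⁻¹ * g) = g
    rw [← hblock, mul_inv_cancel_left]

end Blk

/-- The sum of a character over a subgroup is a natural multiple of its order. -/
theorem exists_nat_sum {G : Type*} [Group G] [Fintype G] {χ : G → ℂ} (hχ : Cfsg.IsCharacter G χ)
    (N : Subgroup G) : ∃ c : ℕ, ∑ v : N, χ v = (c : ℂ) := by
  obtain ⟨c, hc⟩ := exists_nat_classInner' (isCharacter_restrict hχ N) (isCharacter_one (G := N))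
  rw [Cfsg.classInner, inv_mul_eq_iff_eq_mul₀ (Nat.cast_ne_zero.2 (Nat.card_pos (α := N)).ne')] at hc
  refine ⟨Nat.card N * c, ?_⟩
  rw [Nat.cast_mul, ← hc]
  simp

/-- Every irreducible character is a constituent of an induced cuspidal system. -/
theorem exists_support (hn : 0 < n) (χ : Cfsg.IrrCharacter (GL (Fin n) F)) :
    ∃ (B : Blk n) (δ : B.Sys F), B.CuspSys δ ∧
      Cfsg.classInner (B.R δ) (χ : GL (Fin n) F → ℂ) ≠ 0 := by
  have hex : ∃ B : Blk n, psum B.U' (χ : GL (Fin n) F → ℂ) ≠ 0 := by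
    refine ⟨topBlk n hn, ?_⟩
    rw [psum, Finset.sum_eq_single 1]
    · rw [if_pos (show Pat (topBlk n hn).U' (1 : GL (Fin n) F) from fun i j _ => by rw [Units.val_one])]
      exact map_one_ne_zero χ
    · intro g _ hg
      rw [if_neg]
      intro h
      exact hg (Units.ext (Matrix.ext fun i j => h i j (lt_irrefl _)))
    · simp
  let S : Set ℕ := {r | ∃ B : Blk n, B.r = r ∧ psum B.U' (χ : GL (Fin n) F → ℂ) ≠ 0}
  have hfin : S.Finite := (Set.finite_Iic n).subset (by
    rintro r ⟨B, rfl, -⟩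
    simpa using Fintype.card_le_of_surjective B.β B.surj)
  obtain ⟨B₀, hB₀⟩ := hex
  obtain ⟨r, ⟨B, hBr, hB⟩, hmax⟩ := Set.exists_max_image S id hfin ⟨B₀.r, B₀, rfl, hB₀⟩
  have hJ := B.isClassFunction_J (isClassFunction_coe χ)
  have hJ1 : B.J (χ : GL (Fin n) F → ℂ) 1 ≠ 0 := by
    rw [Blk.J_one]
    refine mul_ne_zero (inv_ne_zero (Nat.cast_ne_zero.2 ?_)) hB
    have : Nonempty {u : GL (Fin n) F // Pat B.U' u} := ⟨⟨1, fun i j _ => by simp⟩⟩
    exact Nat.card_pos.ne'
  have hexp : ∀ m, B.J (χ : GL (Fin n) F → ℂ) m = ∑ σ : Cfsg.IrrCharacter (B.M F),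
      Cfsg.classInner (B.J (χ : GL (Fin n) F → ℂ)) (σ : B.M F → ℂ) * (σ : B.M F → ℂ) m := fun m =>
    eq_sum_classInner_mul hJ m
  have hnat : ∀ σ : Cfsg.IrrCharacter (B.M F), ∃ (δ : B.Sys F) (c : ℕ),
      (∀ m, (σ : B.M F → ℂ) m = B.prodFun δ m) ∧
      Cfsg.classInner (B.J (χ : GL (Fin n) F → ℂ)) (σ : B.M F → ℂ) = c ∧
      Cfsg.classInner (B.R δ) (χ : GL (Fin n) F → ℂ) = c := by
    intro σ
    obtain ⟨δ, hδ⟩ := exists_pi_eq (r := B.r) (H := fun a => GL (Fin (B.s a)) F) σ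
    obtain ⟨c, hc, hc'⟩ := B.exists_nat_J δ χ
    refine ⟨δ, c, hδ, ?_, hc'⟩
    rw [classInner_comm_conj, show (σ : B.M F → ℂ) = B.prodFun δ from funext hδ, hc, map_natCast]
  choose δ c hδ hc hc' using hnat
  obtain ⟨σ₀, hσ₀⟩ : ∃ σ, c σ ≠ 0 := by
    by_contra h
    simp only [ne_eq, not_exists, not_not] at h
    refine hJ1 ?_
    rw [hexp]
    exact Finset.sum_eq_zero fun σ _ => by rw [hc, h, Nat.cast_zero, zero_mul]
  refine ⟨B, δ σ₀, fun a => isCusp_of_cuts (isClassFunction_coe _) fun m hm hms => ?_, by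
    rw [hc']; exact Nat.cast_ne_zero.2 hσ₀⟩
  by_contra hne
  set S' : Fin (B.s a) → Fin (B.s a) → Prop := fun k l => k.val < m ∧ m ≤ l.val with hS'
  have htrans : ∀ i j k, S' i j → S' j k → S' i k := fun i j k h h' => by
    simp only [hS'] at h h' ⊢
    omega
  have hterm : ∀ σ : Cfsg.IrrCharacter (B.M F), ∃ t : ℕ,
      ∑ v : (pat S' htrans : Subgroup (GL (Fin (B.s a)) F)), (σ : B.M F → ℂ) (Pi.mulSingle a (v : GL (Fin (B.s a)) F))
        = t ∧ (psum S' (δ σ a : GL (Fin (B.s a)) F → ℂ) ≠ 0 → t ≠ 0) := by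
    intro σ
    choose d hd0 hd using fun b => exists_pos_natCast_map_one (δ σ b).2
    obtain ⟨e, he⟩ := exists_nat_sum (isCharacter_coe (δ σ a)) (pat S' htrans)
    refine ⟨(∏ b ∈ univ.erase a, d b) * e, ?_, fun h => Nat.mul_ne_zero
      (Finset.prod_ne_zero_iff.2 fun b _ => (hd0 b).ne') fun he0 => h ?_⟩
    · rw [Nat.cast_mul, Nat.cast_prod, ← he, Finset.mul_sum]
      refine Finset.sum_congr rfl fun v _ => ?_
      have := B.prodFun_mulSingle (δ σ) 1 a (v : GL (Fin (B.s a)) F)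
      rw [one_mul] at this
      rw [hδ, this]
      simp [hd]
    · rw [psum_eq htrans, he, he0, Nat.cast_zero]
  choose t ht ht0 using hterm
  have hz : psum S' (fun v => B.J (χ : GL (Fin n) F → ℂ) (Pi.mulSingle a v)) = 0 := by
    have hle : ¬ psum (B.split a m hm hms).U' (χ : GL (Fin n) F → ℂ) ≠ 0 := fun h => by
      have := hmax (B.r + 1) ⟨B.split a m hm hms, rfl, h⟩
      simp only [id_eq] at this
      omega
    rw [not_not, B.psum_split] at hle
    refine (mul_eq_zero.1 hle).resolve_left ?_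
    have : Nonempty {u : GL (Fin n) F // Pat B.U' u} := ⟨⟨1, fun i j _ => by simp⟩⟩
    exact Nat.cast_ne_zero.2 Nat.card_pos.ne'
  rw [psum_eq htrans, Finset.sum_congr rfl (fun v _ => hexp _), Finset.sum_comm] at hz
  simp only [← Finset.mul_sum, ht, hc, ← Nat.cast_mul, ← Nat.cast_sum, Nat.cast_eq_zero,
    Finset.sum_eq_zero_iff, Finset.mem_univ, true_implies, mul_eq_zero] at hz
  exact (hz σ₀).elim hσ₀ (ht0 σ₀ hne)

end CfsgLib.GLCusp
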