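import Mathlib
import Cfsg.Agent.Eq.Def_Characters
import Cfsg.Agent.Chars.Basic
import Cfsg.Agent.Chars.Induced.Basic
import Cfsg.Agent.Chars.Induced.Rep

/-!
# General lemmas on induced characters used for cuspidal characters
-/

set_option autoImplicit false

noncomputable section

namespace CfsgLib.GLCusp

open Finset CfsgLib.Chars CfsgLib.Chars.Induced
open scoped Classical ComplexConjugate

universe u

variable {G : Type u} [Group G] [Fintype G]

theorem eq_zero_of_classInner_self {f : G → ℂ} (h : Cfsg.classInner f f = 0) : f = 0 := by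
  funext g
  rw [Cfsg.classInner, mul_eq_zero] at h
  rcases h with h | h
  · rw [inv_eq_zero, Nat.cast_eq_zero] at h
    exact absurd h (Nat.card_pos (α := G)).ne'
  · have h2 : ∑ x : G, Complex.normSq (f x) = 0 := by
      have : ((∑ x : G, Complex.normSq (f x) : ℝ) : ℂ) = 0 := by
        rw [Complex.ofReal_sum, ← h]
        exact Finset.sum_congr rfl fun x _ => (Complex.mul_conj (f x)).symm
      exact_mod_cast this
    have h3 := (Finset.sum_eq_zero_iff_of_nonneg fun x _ => Complex.normSq_nonneg _).1 h2 g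
      (Finset.mem_univ g)
    exact Complex.normSq_eq_zero.1 h3

theorem classInner_sub_self (f g : G → ℂ) :
    Cfsg.classInner (f - g) (f - g) = Cfsg.classInner f f - Cfsg.classInner f g
      - Cfsg.classInner g f + Cfsg.classInner g g := by
  simp only [Cfsg.classInner, Pi.sub_apply, map_sub, sub_mul, mul_sub, Finset.sum_sub_distrib]
  ring

/-- A character with no fixed vectors on `N` sums to zero on every coset of `N`. -/
theorem sum_coset_eq_zero' {χ : G → ℂ} (hχ : Cfsg.IsCharacter G χ) (N : Subgroup G)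
    (h : ∑ v : N, χ v = 0) (g : G) : ∑ v : N, χ (g * v) = 0 := by
  obtain ⟨d, ρ, rfl⟩ := hχ
  set T : Module.End ℂ (Fin d → ℂ) := ∑ v : N, ρ (v : G) with hTdef
  have hfix : ∀ v : N, ρ (v : G) * T = T := fun v => by
    rw [hTdef, Finset.mul_sum]
    exact Fintype.sum_equiv (Equiv.mulLeft v) _ _ fun x => by simp [map_mul]
  have hTT : T * T = (Fintype.card N : ℂ) • T := by
    nth_rewrite 1 [hTdef]
    rw [Finset.sum_mul, Finset.sum_congr rfl (fun v _ => hfix v), Finset.sum_const,
      Finset.card_univ, Nat.cast_smul_eq_nsmul]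
  have hc : (Fintype.card N : ℂ) ≠ 0 := Nat.cast_ne_zero.2 Fintype.card_ne_zero
  have he : IsIdempotentElem ((Fintype.card N : ℂ)⁻¹ • T) := by
    show _ * _ = _
    rw [smul_mul_smul_comm, hTT, smul_smul]
    field_simp
  have htr : LinearMap.trace ℂ _ T = 0 := by
    rw [hTdef, map_sum]
    exact h
  have hzero : (Fintype.card N : ℂ)⁻¹ • T = 0 :=
    LinearMap.IsIdempotentElem.eq_zero_of_trace_eq_zero he (by rw [map_smul, htr, smul_zero])
  have hT : T = 0 := (smul_eq_zero.1 hzero).resolve_left (inv_ne_zero hc)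
  have : ∑ v : N, ρ.character (g * v) = LinearMap.trace ℂ _ (ρ g * T) := by
    rw [hTdef, Finset.mul_sum, map_sum]
    refine Finset.sum_congr rfl fun v _ => ?_
    rw [← map_mul]
    rfl
  rw [this, hT, mul_zero, map_zero]

/-- Averaging a function through a surjective homomorphism. -/
theorem avg_comp_hom {A B : Type*} [Group A] [Fintype A] [Group B] [Fintype B] (φ : A →* B)
    (hφ : Function.Surjective φ) (f : B → ℂ) :
    (Nat.card A : ℂ)⁻¹ * ∑ a : A, f (φ a) = (Nat.card B : ℂ)⁻¹ * ∑ b : B, f b := by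
  set k := (univ.filter fun a => φ a = 1).card with hk
  have hfib : ∀ b : B, (univ.filter fun a => φ a = b).card = k := fun b =>
    MonoidHom.card_fiber_eq_of_mem_range φ (hφ b) (hφ 1)
  have hsum : ∑ a : A, f (φ a) = (k : ℂ) * ∑ b : B, f b := by
    rw [← Finset.sum_fiberwise univ φ, Finset.mul_sum]
    refine Finset.sum_congr rfl fun b _ => ?_
    rw [Finset.sum_congr rfl (fun a ha => by rw [(Finset.mem_filter.1 ha).2]), Finset.sum_const,
      hfib, nsmul_eq_mul]
  have hcard : Nat.card A = k * Nat.card B := by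
    rw [Nat.card_eq_fintype_card, Nat.card_eq_fintype_card, ← Finset.card_univ,
      Finset.card_eq_sum_card_fiberwise (f := φ) (s := univ) (t := univ)
        (fun x _ => Finset.mem_univ _),
      Finset.sum_congr rfl (fun b _ => hfib b), Finset.sum_const, Finset.card_univ, smul_eq_mul,
      mul_comm]
  have hk0 : (k : ℂ) ≠ 0 := by
    rw [Nat.cast_ne_zero, hk]
    exact (Finset.card_pos.2 ⟨1, by simp⟩).ne'
  rw [hsum, hcard, Nat.cast_mul, mul_inv, ← mul_assoc, mul_right_comm (k : ℂ)⁻¹, inv_mul_cancel₀ hk0,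
    one_mul]

/-! ## Inner products of induced functions -/

/-- The double coset kernel of two induced functions. -/
def kern (H K : Subgroup G) (θ : H → ℂ) (η : K → ℂ) (x : G) : ℂ :=
  ∑ h : H, θ h * conj (Cfsg.extendByZero K η (x⁻¹ * (h : G) * x))

theorem kern_eq (H K : Subgroup G) (θ : H → ℂ) (η : K → ℂ) (x : G) :
    kern H K θ η x = ∑ h : {h : H // x⁻¹ * (h : G) * x ∈ K}, θ h.1 * conj (η ⟨_, h.2⟩) := by
  rw [kern, ← Finset.sum_filter_of_ne (p := fun h : H => x⁻¹ * (h : G) * x ∈ K)]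
  · rw [Finset.sum_subtype _ (p := fun h : H => x⁻¹ * (h : G) * x ∈ K) (fun h => by simp)]
    exact Finset.sum_congr rfl fun h _ => by rw [extendByZero_mem η h.2]
  · intro h _ hne
    by_contra hh
    exact hne (by rw [extendByZero_notMem η hh, map_zero, mul_zero])

theorem kern_mul {H K : Subgroup G} {θ : H → ℂ} {η : K → ℂ} (hθ : Cfsg.IsClassFunction H θ)
    (hη : Cfsg.IsClassFunction K η) (a : H) (b : K) (x : G) :
    kern H K θ η ((a : G) * x * b) = kern H K θ η x := by
  rw [kern, kern]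
  refine Fintype.sum_equiv (MulAut.conj a⁻¹).toEquiv _ _ fun h => ?_
  have e : (MulAut.conj a⁻¹).toEquiv h = a⁻¹ * h * a := by simp
  rw [e]
  have e1 : θ (a⁻¹ * h * a) = θ h := by
    have := hθ h a⁻¹
    rwa [inv_inv] at this
  have e2 : ((a : G) * x * b)⁻¹ * (h : G) * ((a : G) * x * b) =
      ((b⁻¹ : K) : G) * (x⁻¹ * ((a⁻¹ * h * a : H) : G) * x) * ((b⁻¹ : K) : G)⁻¹ := by
    push_cast
    group
  rw [e1, e2, extendByZero_conj hη]

theorem classInner_ind_ind (H K : Subgroup G) (θ : H → ℂ) (η : K → ℂ) :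
    Cfsg.classInner (Cfsg.indFun H θ) (Cfsg.indFun K η)
      = ((Nat.card H : ℂ) * Nat.card K)⁻¹ * ∑ x : G, kern H K θ η x := by
  rw [classInner_indFun H θ (indFun_isClassFunction K η), Cfsg.classInner]
  simp only [Cfsg.indFun, map_mul, map_inv₀, map_natCast, map_sum, kern]
  rw [Finset.sum_comm (γ := G), mul_inv, mul_assoc, Finset.mul_sum (a := (Nat.card K : ℂ)⁻¹)]
  congr 1
  refine Finset.sum_congr rfl fun h _ => ?_
  rw [Finset.mul_sum, Finset.mul_sum, Finset.mul_sum]
  refine Finset.sum_congr rfl fun x _ => ?_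
  ring

/-- Mackey's formula, summed over double coset representatives supporting the kernel. -/
theorem classInner_ind_ind_eq_sum {H K : Subgroup G} {θ : H → ℂ} {η : K → ℂ}
    (hθ : Cfsg.IsClassFunction H θ) (hη : Cfsg.IsClassFunction K η) {ι : Type*} [Fintype ι]
    (x : ι → G)
    (hsupp : ∀ g, kern H K θ η g ≠ 0 → ∃ i, ∃ (a : H) (b : K), g = (a : G) * x i * b)
    (hdisj : ∀ i j, (∃ (a : H) (b : K), x j = (a : G) * x i * b) → i = j) :
    Cfsg.classInner (Cfsg.indFun H θ) (Cfsg.indFun K η)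
      = ∑ i, (Nat.card {h : H // (x i)⁻¹ * (h : G) * x i ∈ K} : ℂ)⁻¹ * kern H K θ η (x i) := by
  rw [classInner_ind_ind]
  let D : ι → Finset G := fun i => univ.image fun p : H × K => (p.1 : G) * x i * p.2
  have hD : (Set.univ : Set ι).PairwiseDisjoint D := by
    intro i _ j _ hij
    rw [Function.onFun, Finset.disjoint_left]
    intro g hgi hgj
    obtain ⟨⟨a, b⟩, -, rfl⟩ := Finset.mem_image.1 hgi
    obtain ⟨⟨a', b'⟩, -, h⟩ := Finset.mem_image.1 hgj
    refine hij (hdisj i j ⟨a'⁻¹ * a, b * b'⁻¹, ?_⟩)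
    have h' : x j = (a' : G)⁻¹ * ((a : G) * x i * b) * (b' : G)⁻¹ := by
      simp only at h
      rw [← h]; group
    rw [h']
    push_cast
    group
  have h1 : ∑ g : G, kern H K θ η g = ∑ i, ∑ g ∈ D i, kern H K θ η g := by
    rw [← Finset.sum_biUnion (by simpa using hD)]
    symm
    refine Finset.sum_subset (Finset.subset_univ _) fun g _ hg => ?_
    by_contra hne
    obtain ⟨i, a, b, rfl⟩ := hsupp g hne
    exact hg (Finset.mem_biUnion.2 ⟨i, Finset.mem_univ i,
      Finset.mem_image.2 ⟨(a, b), Finset.mem_univ _, rfl⟩⟩)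
  rw [h1, Finset.mul_sum]
  refine Finset.sum_congr rfl fun i _ => ?_
  have h2 : ∑ g ∈ D i, kern H K θ η g = ((D i).card : ℂ) * kern H K θ η (x i) := by
    rw [Finset.sum_congr rfl (fun g hg => ?_), Finset.sum_const, nsmul_eq_mul]
    obtain ⟨⟨a, b⟩, -, rfl⟩ := Finset.mem_image.1 hg
    exact kern_mul hθ hη a b _
  have h3 : (Fintype.card H * Fintype.card K) =
      (D i).card * Nat.card {h : H // (x i)⁻¹ * (h : G) * x i ∈ K} := by
    rw [← Fintype.card_prod, ← Finset.card_univ,
      Finset.card_eq_sum_card_image (fun p : H × K => (p.1 : G) * x i * p.2) univ,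
      Finset.sum_const_nat (m := Nat.card {h : H // (x i)⁻¹ * (h : G) * x i ∈ K})]
    intro g hg
    obtain ⟨⟨a, b⟩, -, rfl⟩ := Finset.mem_image.1 hg
    rw [Nat.card_eq_fintype_card, ← Finset.card_univ]
    symm
    refine Finset.card_bij
      (fun l _ => ((a * l.1 : H), (⟨_, l.2⟩ : K)⁻¹ * b))
      (fun l _ => ?_) (fun l _ l' _ h => ?_) (fun p hp => ?_)
    · simp only [Finset.mem_filter, Finset.mem_univ, true_and, Subgroup.coe_mul, Subgroup.coe_inv]
      group
    · simp only [Prod.mk.injEq, mul_right_inj] at h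
      exact Subtype.ext h.1
    · obtain ⟨a', b'⟩ := p
      have h := (Finset.mem_filter.1 hp).2
      simp only at h
      have e : (x i)⁻¹ * ((a⁻¹ * a' : H) : G) * x i = ((b * b'⁻¹ : K) : G) := by
        push_cast
        calc (x i)⁻¹ * ((a : G)⁻¹ * (a' : G)) * x i
            = (x i)⁻¹ * (a : G)⁻¹ * ((a' : G) * x i * (b' : G)) * (b' : G)⁻¹ := by group
          _ = (b : G) * (b' : G)⁻¹ := by rw [h]; group
      refine ⟨⟨a⁻¹ * a', by rw [e]; exact SetLike.coe_mem _⟩, Finset.mem_univ _, ?_⟩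
      refine Prod.ext (by simp) ?_
      apply Subtype.ext
      simp only [Subgroup.coe_mul, Subgroup.coe_inv] at e ⊢
      rw [e]
      group
  have hI : (Nat.card {h : H // (x i)⁻¹ * (h : G) * x i ∈ K} : ℂ) ≠ 0 := by
    have : Nonempty {h : H // (x i)⁻¹ * (h : G) * x i ∈ K} := ⟨⟨1, by simp⟩⟩
    exact Nat.cast_ne_zero.2 Nat.card_pos.ne'
  have hD0 : ((D i).card : ℂ) ≠ 0 := Nat.cast_ne_zero.2
    (Finset.card_pos.2 ⟨x i, Finset.mem_image.2 ⟨(1, 1), Finset.mem_univ _, by simp⟩⟩).ne'
  rw [h2, Nat.card_eq_fintype_card (α := H), Nat.card_eq_fintype_card (α := K), ← Nat.cast_mul, h3,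
    Nat.cast_mul]
  field_simp

/-! ## Products of finitely many groups -/

variable {r : ℕ} {H : Fin r → Type u} [∀ a, Group (H a)] [∀ a, Fintype (H a)]

theorem isCharacter_pi (δ : ∀ a, Cfsg.IrrCharacter (H a)) :
    Cfsg.IsCharacter (∀ a, H a) (fun m => ∏ a, (δ a : H a → ℂ) (m a)) := by
  suffices h : ∀ s : Finset (Fin r),
      Cfsg.IsCharacter (∀ a, H a) (fun m => ∏ a ∈ s, (δ a : H a → ℂ) (m a)) from h univ
  intro s
  induction s using Finset.induction_on with
  | empty =>
    simp only [Finset.prod_empty]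
    exact isCharacter_one
  | @insert a s ha ih =>
    simp only [Finset.prod_insert ha]
    exact isCharacter_mul (isCharacter_comp (isCharacter_coe (δ a)) (Pi.evalMonoidHom H a)) ih

theorem classInner_pi (f g : ∀ a, H a → ℂ) :
    Cfsg.classInner (fun m : ∀ a, H a => ∏ a, f a (m a)) (fun m => ∏ a, g a (m a))
      = ∏ a, Cfsg.classInner (f a) (g a) := by
  simp only [Cfsg.classInner, Nat.card_pi, Nat.cast_prod, map_prod, ← Finset.prod_mul_distrib,
    ← Finset.prod_inv_distrib]
  rw [Finset.prod_mul_distrib, Fintype.prod_sum (fun a (h : H a) => f a h * conj (g a h))]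

theorem exists_pi_eq (θ : Cfsg.IrrCharacter (∀ a, H a)) :
    ∃ δ : ∀ a, Cfsg.IrrCharacter (H a), ∀ m, (θ : (∀ a, H a) → ℂ) m = ∏ a, (δ a : H a → ℂ) (m a) := by
  have hirr : ∀ δ : ∀ a, Cfsg.IrrCharacter (H a),
      Cfsg.IsIrrCharacter (∀ a, H a) (fun m => ∏ a, (δ a : H a → ℂ) (m a)) := fun δ =>
    isIrrCharacter_of_classInner_self (isCharacter_pi δ) (by
      rw [classInner_pi]; simp [classInner_self])
  let f : (∀ a, Cfsg.IrrCharacter (H a)) → Cfsg.IrrCharacter (∀ a, H a) := fun δ => ⟨_, hirr δ⟩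
  have hinj : Function.Injective f := by
    intro δ δ' h
    have e : (fun m => ∏ a, (δ a : H a → ℂ) (m a)) = fun m : ∀ a, H a => ∏ a, (δ' a : H a → ℂ) (m a) :=
      congrArg Subtype.val h
    have h1 := classInner_pi (fun a => (δ a : H a → ℂ)) (fun a => (δ' a : H a → ℂ))
    rw [← e, classInner_pi] at h1
    simp only [classInner_self, Finset.prod_const_one, classInner_irr] at h1
    funext a
    by_contra hne
    rw [Finset.prod_eq_zero (Finset.mem_univ a) (if_neg hne)] at h1
    exact one_ne_zero h1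
  have hcard : Nat.card (Cfsg.IrrCharacter (∀ a, H a)) ≤
      Nat.card (∀ a, Cfsg.IrrCharacter (H a)) := by
    rw [card_irrCharacter, Nat.card_pi, Finset.prod_congr rfl (fun a _ => card_irrCharacter (H a)),
      ← Nat.card_pi]
    refine Nat.card_le_card_of_surjective
      (fun q : ∀ a, ConjClasses (H a) => ConjClasses.mk (fun a => Quotient.out (q a))) fun K => ?_
    obtain ⟨m, rfl⟩ := ConjClasses.mk_surjective K
    refine ⟨fun a => ConjClasses.mk (m a), ConjClasses.mk_eq_mk_iff_isConj.2 (isConj_iff.2 ?_)⟩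
    have : ∀ a, ∃ c, c * Quotient.out (ConjClasses.mk (m a)) * c⁻¹ = m a := fun a =>
      isConj_iff.1 (ConjClasses.mk_eq_mk_iff_isConj.1 (Quotient.out_eq _))
    choose c hc using this
    exact ⟨c, funext hc⟩
  obtain ⟨δ, hδ⟩ := (hinj.bijective_of_nat_card_le hcard).2 θ
  exact ⟨δ, fun m => (congrFun (congrArg Subtype.val hδ) m).symm⟩

end CfsgLib.GLCusp
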