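import Mathlib

/-!
# Graded families with equal multiset counts
-/

set_option autoImplicit false

noncomputable section

namespace CfsgLib.GLCusp.Graded

open scoped Classical

variable {α β : Type*}

/-- Multisets of total degree `n`. -/
abbrev MS (d : α → ℕ) (n : ℕ) : Type _ := {s : Multiset α // (s.map d).sum = n}

theorem finite_MS {d : α → ℕ} (hpos : ∀ a, 0 < d a) (hfin : ∀ m, Finite {a // d a = m}) (n : ℕ) :
    Finite (MS d n) := by
  have hf : Finite {a // d a ≤ n} := by
    let f : {a // d a ≤ n} → Σ m : Fin (n + 1), {a // d a = m.val} := fun a =>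
      ⟨⟨d a.1, by have := a.2; omega⟩, ⟨a.1, rfl⟩⟩
    have : ∀ m : Fin (n + 1), Finite {a // d a = m.val} := fun m => hfin m
    exact Finite.of_injective f fun a b h => Subtype.ext
      (congrArg (fun x : Σ m : Fin (n + 1), {a // d a = m.val} => x.2.1) h)
  have : Fintype {a // d a ≤ n} := Fintype.ofFinite _
  let T : Finset α := (Finset.univ : Finset {a // d a ≤ n}).map ⟨Subtype.val, Subtype.val_injective⟩
  have hsub : {s : Multiset α | (s.map d).sum = n} ⊆ ↑(n • T.val).powerset.toFinset := by
    intro s hs
    simp only [Set.mem_ofPred_eq] at hs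
    simp only [Finset.mem_coe, Multiset.mem_toFinset, Multiset.mem_powerset]
    refine Multiset.le_iff_count.2 fun a => ?_
    rw [Multiset.count_nsmul]
    by_cases ha : a ∈ s
    · have h1 : d a ≤ n := hs ▸ Multiset.le_sum_of_mem (Multiset.mem_map_of_mem d ha)
      have hT : a ∈ T := Finset.mem_map.2 ⟨⟨a, h1⟩, Finset.mem_univ _, rfl⟩
      rw [Multiset.count_eq_one_of_mem T.nodup hT, mul_one]
      calc s.count a ≤ Multiset.card s := Multiset.count_le_card a s
        _ ≤ (s.map d).sum := by
            have := Multiset.card_nsmul_le_sum (s := s.map d) (a := 1) (by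
              intro x hx
              obtain ⟨b, -, rfl⟩ := Multiset.mem_map.1 hx
              exact hpos b)
            simpa using this
        _ = n := hs
    · simp [Multiset.count_eq_zero.2 ha]
  exact Set.Finite.to_subtype ((Finset.finite_toSet _).subset hsub)

theorem card_MS_eq {d : α → ℕ} (hpos : ∀ a, 0 < d a) (hfin : ∀ m, Finite {a // d a = m}) {n : ℕ}
    (hn : 0 < n) : Nat.card (MS d n)
      = Nat.card (MS (fun x : {a // d a < n} => d x.1) n) + Nat.card {a // d a = n} := by
  have := finite_MS hpos hfin n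
  have hA : Nat.card (MS (fun x : {a // d a < n} => d x.1) n)
      = Nat.card {s : MS d n // ∀ a ∈ s.1, d a < n} := by
    refine Nat.card_eq_of_bijective (fun t => ⟨⟨t.1.map Subtype.val, by
      rw [Multiset.map_map]; exact t.2⟩, fun a ha => ?_⟩) ⟨fun t t' h => ?_, fun s => ?_⟩
    · obtain ⟨x, -, rfl⟩ := Multiset.mem_map.1 ha
      exact x.2
    · exact Subtype.ext (Multiset.map_injective Subtype.val_injective
        (congrArg (fun s : {s : MS d n // ∀ a ∈ s.1, d a < n} => s.1.1) h))
    · have hmap : (s.1.1.attach.map fun x => (⟨x.1, s.2 x.1 x.2⟩ : {a // d a < n})).map Subtype.val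
          = s.1.1 := by
        rw [Multiset.map_map]
        exact Multiset.attach_map_val _
      refine ⟨⟨_, ?_⟩, Subtype.ext (Subtype.ext hmap)⟩
      have := s.1.2
      rw [← hmap, Multiset.map_map] at this
      exact this
  have hB : Nat.card {a // d a = n} = Nat.card {s : MS d n // ¬ ∀ a ∈ s.1, d a < n} := by
    refine Nat.card_eq_of_bijective (fun a => ⟨⟨{a.1}, by simpa using a.2⟩, fun h =>
      (h a.1 (Multiset.mem_singleton_self _)).ne a.2⟩) ⟨fun a b h => ?_, fun s => ?_⟩
    · have := congrArg (fun s : {s : MS d n // ¬ ∀ a ∈ s.1, d a < n} => s.1.1) h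
      exact Subtype.ext (Multiset.singleton_inj.1 this)
    · obtain ⟨a, ha, hlt⟩ : ∃ a ∈ s.1.1, ¬ d a < n := by simpa using s.2
      obtain ⟨t, ht⟩ := Multiset.exists_cons_of_mem ha
      have hsum := s.1.2
      rw [ht, Multiset.map_cons, Multiset.sum_cons] at hsum
      have hda : d a = n := by omega
      have ht0 : t = 0 := by
        refine Multiset.eq_zero_of_forall_notMem fun b hb => ?_
        have h1 := Multiset.le_sum_of_mem (Multiset.mem_map_of_mem d hb)
        have h2 := hpos b
        omega
      exact ⟨⟨a, hda⟩, Subtype.ext (Subtype.ext (by rw [ht, ht0]; rfl))⟩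
  rw [hA, hB, ← Nat.card_sum]
  exact Nat.card_congr (Equiv.sumCompl _).symm

/-- Graded families with the same multiset counts have the same counts. -/
theorem card_fibre_eq {d : α → ℕ} {e : β → ℕ} (hd : ∀ a, 0 < d a) (he : ∀ b, 0 < e b)
    (hdf : ∀ m, Finite {a // d a = m}) (hef : ∀ m, Finite {b // e b = m})
    (h : ∀ n, 0 < n → Nat.card (MS d n) = Nat.card (MS e n)) (n : ℕ) (hn : 0 < n) :
    Nat.card {a // d a = n} = Nat.card {b // e b = n} := by
  induction n using Nat.strong_induction_on with
  | _ n IH =>
    have hE : ∀ m, Nonempty ({x : {a // d a < n} // d x.1 = m} ≃ {y : {b // e b < n} // e y.1 = m}) := by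
      intro m
      rcases lt_or_ge m n with hm | hm
      · rcases Nat.eq_zero_or_pos m with rfl | hm0
        · have : IsEmpty {x : {a // d a < n} // d x.1 = 0} := ⟨fun x => absurd x.2 (hd _).ne'⟩
          have : IsEmpty {y : {b // e b < n} // e y.1 = 0} := ⟨fun y => absurd y.2 (he _).ne'⟩
          exact ⟨Equiv.equivOfIsEmpty _ _⟩
        · have := hdf m
          have := hef m
          obtain ⟨f⟩ := Finite.card_eq.1 (IH m hm hm0)
          exact ⟨((Equiv.subtypeSubtypeEquivSubtype (fun {a} (h' : d a = m) => (h' ▸ hm : d a < n))).trans f).trans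
            (Equiv.subtypeSubtypeEquivSubtype (fun {b} (h' : e b = m) => (h' ▸ hm : e b < n))).symm⟩
      · have : IsEmpty {x : {a // d a < n} // d x.1 = m} := ⟨fun x => by have := x.1.2; have := x.2; omega⟩
        have : IsEmpty {y : {b // e b < n} // e y.1 = m} := ⟨fun y => by have := y.1.2; have := y.2; omega⟩
        exact ⟨Equiv.equivOfIsEmpty _ _⟩
    let E : {a // d a < n} ≃ {b // e b < n} :=
      Equiv.ofFiberEquiv (f := fun x : {a // d a < n} => d x.1) (g := fun y : {b // e b < n} => e y.1)
        fun m => (hE m).some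
    have hEd : ∀ x, e (E x).1 = d x.1 := fun x =>
      Equiv.ofFiberEquiv_map (f := fun x : {a // d a < n} => d x.1) (g := fun y : {b // e b < n} => e y.1) _ x
    have hlow : Nat.card (MS (fun x : {a // d a < n} => d x.1) n)
        = Nat.card (MS (fun y : {b // e b < n} => e y.1) n) := by
      refine Nat.card_eq_of_bijective (fun s => ⟨s.1.map E, by
        rw [Multiset.map_map]
        exact (congrArg Multiset.sum (Multiset.map_congr rfl (fun x _ => hEd x))).trans s.2⟩)
        ⟨fun s s' h' => Subtype.ext (Multiset.map_injective E.injective (congrArg Subtype.val h')),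
          fun t => ⟨⟨t.1.map E.symm, ?_⟩, Subtype.ext (by simp [Multiset.map_map])⟩⟩
      rw [Multiset.map_map]
      refine (congrArg Multiset.sum (Multiset.map_congr rfl (fun y _ => ?_))).trans t.2
      simp only [Function.comp_apply, ← hEd, E.apply_symm_apply]
    have := h n hn
    rw [card_MS_eq hd hdf hn, card_MS_eq he hef hn, hlow] at this
    omega

end CfsgLib.GLCusp.Graded
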