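import Cfsg.Agent.GLCusp.Basic
import Cfsg.Agent.GLCusp.General

/-!
# Parabolic induction of cuspidal characters
-/

set_option autoImplicit false

noncomputable section

namespace CfsgLib.GLCusp

open Matrix Finset CfsgLib.Chars CfsgLib.Chars.Induced
open CfsgLib.Unipotent (pm)
open scoped Classical ComplexConjugate

variable {F : Type*} [Field F] [Fintype F] [DecidableEq F] {n : ℕ}

/-- A label: an irreducible character of some `GL_m`. -/
abbrev Lab (F : Type*) [Field F] [Fintype F] [DecidableEq F] : Type _ :=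
  Σ m : ℕ, Cfsg.IrrCharacter (GL (Fin m) F)

/-- Change of degree along an equality. -/
def castGL {m m' : ℕ} (h : m = m') : GL (Fin m) F →* GL (Fin m') F :=
  h ▸ MonoidHom.id _

theorem castGL_apply {m m' : ℕ} (h : m = m') (g : GL (Fin m) F) (k l : Fin m') :
    ((castGL h g : GL (Fin m') F) : Matrix (Fin m') (Fin m') F) k l
      = (g : Matrix (Fin m) (Fin m) F) (finCongr h.symm k) (finCongr h.symm l) := by
  subst h; rfl

theorem classInner_cast {m m' : ℕ} (h : m = m') (δ : Cfsg.IrrCharacter (GL (Fin m) F))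
    (δ' : Cfsg.IrrCharacter (GL (Fin m') F)) :
    Cfsg.classInner (δ : GL (Fin m) F → ℂ) (fun g => (δ' : GL (Fin m') F → ℂ) (castGL h g))
      = if (⟨m, δ⟩ : Lab F) = ⟨m', δ'⟩ then 1 else 0 := by
  subst h
  show Cfsg.classInner (δ : GL (Fin m) F → ℂ) (δ' : GL (Fin m) F → ℂ) = _
  rw [classInner_irr]
  exact if_congr ⟨fun e => by rw [e], fun e => eq_of_heq (Sigma.mk.inj e).2⟩ rfl rfl

namespace Blk

variable (B : Blk n)

/-- A choice of irreducible characters of the diagonal blocks. -/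
abbrev Sys (F : Type*) [Field F] [Fintype F] [DecidableEq F] : Type _ :=
  ∀ a : Fin B.r, Cfsg.IrrCharacter (GL (Fin (B.s a)) F)

/-- All blocks carry cuspidal characters. -/
def CuspSys (δ : B.Sys F) : Prop :=
  ∀ a, IsCusp (δ a : GL (Fin (B.s a)) F → ℂ)

/-- The labels of a system. -/
def lab (δ : B.Sys F) (a : Fin B.r) : Lab F := ⟨B.s a, δ a⟩

/-- The character of the Levi subgroup. -/
def prodFun (δ : B.Sys F) (m : B.M F) : ℂ := ∏ a, (δ a : GL (Fin (B.s a)) F → ℂ) (m a)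

/-- The inflated character of the parabolic subgroup. -/
def pFun (δ : B.Sys F) (g : (B.P : Subgroup (GL (Fin n) F))) : ℂ := B.prodFun δ (B.projAll g)

theorem isCharacter_pFun (δ : B.Sys F) : Cfsg.IsCharacter _ (B.pFun δ) :=
  isCharacter_comp (isCharacter_pi (r := B.r) δ) B.projAll

theorem isClassFunction_pFun (δ : B.Sys F) : Cfsg.IsClassFunction _ (B.pFun δ) :=
  Chars.isClassFunction_of_isCharacter (B.isCharacter_pFun δ)

/-- Harish-Chandra induction. -/
def R (δ : B.Sys F) : GL (Fin n) F → ℂ := Cfsg.indFun B.P (B.pFun δ)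

theorem isCharacter_R (δ : B.Sys F) : Cfsg.IsCharacter _ (B.R δ) :=
  isCharacter_indFun _ (B.isCharacter_pFun δ)

theorem prodFun_mulSingle (δ : B.Sys F) (m : B.M F) (a : Fin B.r) (v : GL (Fin (B.s a)) F) :
    B.prodFun δ (m * Pi.mulSingle a v)
      = (∏ b ∈ univ.erase a, (δ b : GL (Fin (B.s b)) F → ℂ) (m b))
        * (δ a : GL (Fin (B.s a)) F → ℂ) (m a * v) := by
  rw [prodFun, ← Finset.prod_erase_mul univ _ (Finset.mem_univ a)]
  congr 1
  · refine Finset.prod_congr rfl fun b hb => ?_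
    rw [Pi.mul_apply, Pi.mulSingle_eq_of_ne (Finset.ne_of_mem_erase hb), mul_one]
  · rw [Pi.mul_apply, Pi.mulSingle_eq_same]

end Blk

theorem kern_symm {G : Type*} [Group G] [Fintype G] (H K : Subgroup G) (θ : H → ℂ) (η : K → ℂ)
    (x : G) : kern K H η θ x⁻¹ = conj (kern H K θ η x) := by
  rw [kern, kern, ← sum_extendByZero_mul K η (fun g => conj (Cfsg.extendByZero H θ (x⁻¹⁻¹ * g * x⁻¹))),
    ← sum_extendByZero_mul H θ (fun g => conj (Cfsg.extendByZero K η (x⁻¹ * g * x))), map_sum]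
  refine Fintype.sum_equiv (MulAut.conj x).toEquiv _ _ fun g => ?_
  have e : (MulAut.conj x).toEquiv g = x * g * x⁻¹ := rfl
  rw [e, inv_inv, map_mul, Complex.conj_conj]
  rw [show x⁻¹ * (x * g * x⁻¹) * x = g by group]
  ring

namespace Blk

variable {B : Blk n}

theorem ext_mul_right (δ : B.Sys F) (y u : GL (Fin n) F) (hu : Pat B.U' u) :
    Cfsg.extendByZero B.P (B.pFun δ) (y * u) = Cfsg.extendByZero B.P (B.pFun δ) y := by
  by_cases hy : y ∈ (B.P : Subgroup (GL (Fin n) F))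
  · have h1 : B.projAll (⟨u, B.U_mem_P hu⟩ : (B.P : Subgroup (GL (Fin n) F))) = 1 :=
      (B.projAll_eq_one_iff _).2 hu
    rw [extendByZero_mem _ hy, extendByZero_mem _ (mul_mem hy (B.U_mem_P hu))]
    show B.prodFun δ (B.projAll (⟨y, hy⟩ * ⟨u, B.U_mem_P hu⟩)) = _
    rw [map_mul, h1, mul_one]
    rfl
  · rw [extendByZero_notMem _ hy, extendByZero_notMem]
    intro h
    exact hy (by simpa using mul_mem h (inv_mem (B.U_mem_P hu)))

variable {B' : Blk n}

/-- A cuspidal block split by a double coset kills the kernel. -/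
theorem kern_eq_zero_of_split (δ : B.Sys F) (hδ : B.CuspSys δ) (δ' : B'.Sys F)
    (w : Equiv.Perm (Fin n)) {i j : Fin n} (hij : B.β i = B.β j)
    (hne : B'.β (w.symm i) ≠ B'.β (w.symm j)) :
    kern B.P B'.P (B.pFun δ) (B'.pFun δ') (pm w : GL (Fin n) F) = 0 := by
  obtain ⟨k₁, hk₁⟩ := B.exists_e i
  obtain ⟨k₂, hk₂⟩ := B.exists_e j
  revert k₂
  rw [← hij]
  intro k₂ hk₂
  generalize B.β i = a at k₁ hk₁ k₂ hk₂
  set c : Fin (B.s a) → Fin B'.r := fun k => B'.β (w.symm (B.e a k)) with hc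
  obtain ⟨k₀, -, hk₀⟩ := Finset.exists_min_image univ c ⟨k₁, Finset.mem_univ _⟩
  set L : Finset (Fin (B.s a)) := univ.filter fun k => c k = c k₀ with hL
  have hLne : L ≠ univ := by
    intro h
    have h1 : ∀ k, c k = c k₀ := fun k => by
      have : k ∈ L := by rw [h]; exact Finset.mem_univ k
      exact (Finset.mem_filter.1 this).2
    refine hne ?_
    have := (h1 k₁).trans (h1 k₂).symm
    simpa [hc, hk₁, hk₂] using this
  let V : Subgroup (GL (Fin (B.s a)) F) := pat (cut L) (cut_trans L)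
  have hsum : ∀ g : GL (Fin (B.s a)) F, ∑ v : V, (δ a : GL (Fin (B.s a)) F → ℂ) (g * v) = 0 := by
    intro g
    refine sum_coset_eq_zero' (isCharacter_coe _) V ?_ g
    rw [← psum_eq]
    exact hδ a L ⟨k₀, by simp [hL]⟩ hLne
  have hu : ∀ v : V, Pat B'.U' ((pm w : GL (Fin n) F)⁻¹ * B.emb (Pi.mulSingle a (v : GL (Fin (B.s a)) F)) * pm w) := by
    intro v p q hpq
    rw [conj_pm_apply]
    by_cases hb : B.β (w p) = B.β (w q)
    · obtain ⟨k, hk⟩ := B.exists_e (w p)
      obtain ⟨l, hl⟩ := B.exists_e (w q)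
      revert l
      rw [← hb]
      intro l hl
      rw [← hk, ← hl, emb_diag]
      have hone : (1 : Matrix (Fin n) (Fin n) F) p q
          = (1 : Matrix (Fin (B.s (B.β (w p)))) (Fin (B.s (B.β (w p)))) F) k l := by
        simp only [Matrix.one_apply]
        refine if_congr ?_ rfl rfl
        rw [← w.injective.eq_iff]
        refine ⟨fun e => (B.e _).injective (hk.trans (e.trans hl.symm)), fun e => ?_⟩
        subst e
        exact hk.symm.trans hl
      rw [hone]
      revert hk hl k l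
      generalize hb' : B.β (w p) = b
      intro k hk l hl _
      by_cases hba : b = a
      · subst hba
        rw [Pi.mulSingle_eq_same]
        refine v.2 k l fun hcut => hpq ?_
        simp only [cut, hL, Finset.mem_filter, Finset.mem_univ, true_and] at hcut
        have h1 : c k < c l := hcut.1.trans_lt (lt_of_le_of_ne (hk₀ l (Finset.mem_univ l)) (Ne.symm hcut.2))
        simpa [hc, hk, hl, Blk.U'] using h1
      · rw [Pi.mulSingle_eq_of_ne hba, Units.val_one]
    · rw [emb_off B _ hb, Matrix.one_apply_ne]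
      rintro rfl
      exact hb rfl
  set x : GL (Fin n) F := pm w with hx
  set T := kern B.P B'.P (B.pFun δ) (B'.pFun δ') x with hT
  have key : ∀ v : V, T = ∑ h : (B.P : Subgroup (GL (Fin n) F)),
      B.prodFun δ (B.projAll h * Pi.mulSingle a (v : GL (Fin (B.s a)) F)) *
        conj (Cfsg.extendByZero B'.P (B'.pFun δ') (x⁻¹ * (h : GL (Fin n) F) * x)) := by
    intro v
    rw [hT, kern]
    symm
    refine Fintype.sum_equiv
      (Equiv.mulRight (⟨B.emb (Pi.mulSingle a (v : GL (Fin (B.s a)) F)), B.emb_mem _⟩ :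
        (B.P : Subgroup (GL (Fin n) F)))) _ _ fun h => ?_
    simp only [Equiv.coe_mulRight, pFun, map_mul, B.projAll_emb, Subgroup.coe_mul]
    congr 2
    rw [← ext_mul_right δ' _ _ (hu v)]
    congr 1
    group
  have : (Fintype.card V : ℂ) * T = 0 := by
    rw [← Finset.card_univ, ← nsmul_eq_mul, ← Finset.sum_const, Finset.sum_congr rfl (fun v _ => key v),
      Finset.sum_comm]
    refine Finset.sum_eq_zero fun h _ => ?_
    rw [← Finset.sum_mul, Finset.sum_congr rfl (fun v _ => B.prodFun_mulSingle δ _ a _),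
      ← Finset.mul_sum, hsum, mul_zero, zero_mul]
  exact (mul_eq_zero.1 this).resolve_left (Nat.cast_ne_zero.2 Fintype.card_ne_zero)

/-- A nonzero kernel respects the blocks on both sides. -/
theorem exists_equiv_of_kern_ne_zero (δ : B.Sys F) (hδ : B.CuspSys δ) (δ' : B'.Sys F)
    (hδ' : B'.CuspSys δ') (w : Equiv.Perm (Fin n))
    (h : kern B.P B'.P (B.pFun δ) (B'.pFun δ') (pm w : GL (Fin n) F) ≠ 0) :
    ∃ π : Fin B.r ≃ Fin B'.r, ∀ i, B'.β (w.symm i) = π (B.β i) := by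
  have h1 : ∀ i j, B.β i = B.β j → B'.β (w.symm i) = B'.β (w.symm j) := fun i j hij => by
    by_contra hne
    exact h (kern_eq_zero_of_split δ hδ δ' w hij hne)
  have h2 : ∀ p q, B'.β p = B'.β q → B.β (w p) = B.β (w q) := fun p q hpq => by
    by_contra hne
    have hz := kern_eq_zero_of_split δ' hδ' δ w.symm hpq
      (by simpa using hne)
    rw [show (pm w.symm : GL (Fin n) F) = (pm w)⁻¹ by rw [← map_inv]; rfl, kern_symm] at hz
    exact h (by simpa using hz)
  let π : Fin B.r → Fin B'.r := fun a => B'.β (w.symm (B.surj a).choose)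
  have hπ : ∀ i, B'.β (w.symm i) = π (B.β i) := fun i =>
    h1 _ _ (B.surj (B.β i)).choose_spec.symm
  have hbij : Function.Bijective π := by
    refine ⟨fun a b hab => ?_, fun b => ?_⟩
    · have := h2 _ _ hab
      simpa [(B.surj a).choose_spec, (B.surj b).choose_spec] using this
    · obtain ⟨p, rfl⟩ := B'.surj b
      exact ⟨B.β (w p), by rw [← hπ, w.symm_apply_apply]⟩
  exact ⟨Equiv.ofBijective π hbij, hπ⟩

theorem s_eq_of_compat (w : Equiv.Perm (Fin n)) (π : Fin B.r ≃ Fin B'.r)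
    (hπ : ∀ i, B'.β (w.symm i) = π (B.β i)) (a : Fin B.r) : B.s a = B'.s (π a) := by
  refine Finset.card_bij (fun i _ => w.symm i) (fun i hi => ?_) (fun i _ j _ h => w.symm.injective h)
    (fun p hp => ⟨w p, ?_, w.symm_apply_apply p⟩)
  · simp only [Finset.mem_filter, Finset.mem_univ, true_and] at hi ⊢
    rw [hπ, hi]
  · simp only [Finset.mem_filter, Finset.mem_univ, true_and] at hp ⊢
    apply π.injective
    rw [← hπ, w.symm_apply_apply, hp]

/-- The permutation matching the blocks along `π`. -/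
def wperm (π : Fin B.r ≃ Fin B'.r) (hs : ∀ a, B.s a = B'.s (π a)) : Equiv.Perm (Fin n) :=
  (B.idx.symm.trans ((Equiv.sigmaCongr π fun a => finCongr (hs a)).trans B'.idx)).symm

theorem wperm_symm_e (π : Fin B.r ≃ Fin B'.r) (hs : ∀ a, B.s a = B'.s (π a)) (a : Fin B.r)
    (k : Fin (B.s a)) : (wperm π hs).symm (B.e a k) = B'.e (π a) (finCongr (hs a) k) := by
  have : B.idx.symm (B.e a k) = ⟨a, k⟩ := by rw [← B.idx_apply, Equiv.symm_apply_apply]
  simp only [wperm, Equiv.symm_symm, Equiv.trans_apply, this]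
  rfl

theorem wperm_compat (π : Fin B.r ≃ Fin B'.r) (hs : ∀ a, B.s a = B'.s (π a)) (i : Fin n) :
    B'.β ((wperm π hs).symm i) = π (B.β i) := by
  obtain ⟨⟨a, k⟩, rfl⟩ := B.idx.surjective i
  rw [B.β_idx, B.idx_apply, wperm_symm_e, B'.β_e]

theorem pm_mem_P (y : Equiv.Perm (Fin n)) (hy : ∀ j, B.β (y j) = B.β j) :
    (pm y : GL (Fin n) F) ∈ (B.P : Subgroup (GL (Fin n) F)) := by
  intro i j hij
  rw [pm_apply, if_neg]
  rintro rfl
  rw [hy] at hij
  exact lt_irrefl _ hij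

theorem mem_conj_of_compat (w : Equiv.Perm (Fin n)) (π : Fin B.r ≃ Fin B'.r)
    (hπ : ∀ i, B'.β (w.symm i) = π (B.β i)) (m : B.M F) :
    (pm w : GL (Fin n) F)⁻¹ * B.emb m * pm w ∈ (B'.P : Subgroup (GL (Fin n) F)) := by
  intro p q hpq
  rw [conj_pm_apply]
  refine B.emb_off m fun h => hpq.ne' ?_
  rw [← w.symm_apply_apply p, ← w.symm_apply_apply q, hπ, hπ, h]

theorem equiv_eq_of_coset (w₁ w₂ : Equiv.Perm (Fin n)) (π₁ π₂ : Fin B.r ≃ Fin B'.r)
    (h₁ : ∀ i, B'.β (w₁.symm i) = π₁ (B.β i)) (h₂ : ∀ i, B'.β (w₂.symm i) = π₂ (B.β i))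
    (a : (B.P : Subgroup (GL (Fin n) F))) (b : (B'.P : Subgroup (GL (Fin n) F)))
    (h : (pm w₂ : GL (Fin n) F) = (a : GL (Fin n) F) * pm w₁ * (b : GL (Fin n) F)) : π₁ = π₂ := by
  have hle : ∀ A, π₁ A ≤ π₂ A := by
    intro A
    let l : Fin (B.s A) := ⟨0, B.s_pos A⟩
    obtain ⟨k, hk⟩ : ∃ k, ((B.proj A a⁻¹ : GL (Fin (B.s A)) F) :
        Matrix (Fin (B.s A)) (Fin (B.s A)) F) k l ≠ 0 := by
      by_contra hc
      simp only [ne_eq, not_exists, not_not] at hc
      refine (Matrix.GeneralLinearGroup.det (B.proj A a⁻¹)).ne_zero ?_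
      rw [Matrix.GeneralLinearGroup.val_det_apply]
      exact Matrix.det_eq_zero_of_column_eq_zero l hc
    rw [proj_apply] at hk
    have e : ((a⁻¹ : (B.P : Subgroup (GL (Fin n) F))) : GL (Fin n) F) * pm w₂
        = pm w₁ * (b : GL (Fin n) F) := by
      rw [h, Subgroup.coe_inv, mul_assoc (a : GL (Fin n) F), inv_mul_cancel_left]
    have e' := congrArg (fun g : GL (Fin n) F =>
      (g : Matrix (Fin n) (Fin n) F) (B.e A k) (w₂.symm (B.e A l))) e
    simp only [mul_pm_apply, pm_mul_apply, Equiv.apply_symm_apply] at e'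
    rw [e'] at hk
    have := not_lt.1 fun hlt => hk (b.2 _ _ hlt)
    rwa [h₁, h₂, B.β_e, B.β_e] at this
  have hsum : ∑ A, ((π₁ A : Fin B'.r) : ℕ) = ∑ A, ((π₂ A : Fin B'.r) : ℕ) := by
    rw [Equiv.sum_comp π₁ (fun b : Fin B'.r => (b : ℕ)), Equiv.sum_comp π₂ (fun b : Fin B'.r => (b : ℕ))]
  exact Equiv.ext fun A => Fin.ext
    ((Finset.sum_eq_sum_iff_of_le fun A _ => Fin.le_def.1 (hle A)).1 hsum A (Finset.mem_univ A))

set_option maxHeartbeats 1000000 in
/-- The kernel averaged at a block permutation. -/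
theorem avg_kern_wperm (δ : B.Sys F) (δ' : B'.Sys F) (π : Fin B.r ≃ Fin B'.r)
    (hs : ∀ a, B.s a = B'.s (π a)) :
    (Nat.card {h : (B.P : Subgroup (GL (Fin n) F)) // (pm (wperm π hs) : GL (Fin n) F)⁻¹ *
      (h : GL (Fin n) F) * pm (wperm π hs) ∈ B'.P} : ℂ)⁻¹ *
      kern B.P B'.P (B.pFun δ) (B'.pFun δ') (pm (wperm π hs))
    = if ∀ a, B.lab δ a = B'.lab δ' (π a) then 1 else 0 := by
  set x : GL (Fin n) F := pm (wperm π hs) with hx
  let I : Subgroup (B.P : Subgroup (GL (Fin n) F)) :=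
    (B'.P).comap ((MulAut.conj x⁻¹).toMonoidHom.comp (B.P : Subgroup (GL (Fin n) F)).subtype)
  have hmem : ∀ h : (B.P : Subgroup (GL (Fin n) F)),
      h ∈ I ↔ x⁻¹ * (h : GL (Fin n) F) * x ∈ B'.P := fun h => by
    simp [I, Subgroup.mem_comap]
  let φ : I →* B.M F := B.projAll.comp I.subtype
  have hφ : Function.Surjective φ := fun m =>
    ⟨⟨⟨B.emb m, B.emb_mem m⟩, (hmem _).2 (mem_conj_of_compat _ π (wperm_compat π hs) m)⟩,
      B.projAll_emb m⟩
  rw [kern_eq]
  let G₀ : B.M F → ℂ := fun m => ∏ a, (δ a : GL (Fin (B.s a)) F → ℂ) (m a) *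
    conj ((δ' (π a) : GL (Fin (B'.s (π a))) F → ℂ) (castGL (hs a) (m a)))
  have hsum : (Nat.card I : ℂ)⁻¹ * ∑ h : I, G₀ (φ h) =
      ∏ a, Cfsg.classInner (δ a : GL (Fin (B.s a)) F → ℂ)
        (fun g => (δ' (π a) : GL (Fin (B'.s (π a))) F → ℂ) (castGL (hs a) g)) := by
    rw [avg_comp_hom φ hφ]
    have := classInner_pi (r := B.r) (H := fun a => GL (Fin (B.s a)) F)
      (fun a => (δ a : GL (Fin (B.s a)) F → ℂ))
      (fun a g => (δ' (π a) : GL (Fin (B'.s (π a))) F → ℂ) (castGL (hs a) g))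
    rw [← this, Cfsg.classInner]
    simp only [G₀, map_prod, Finset.prod_mul_distrib]
  have hrw : (Nat.card {h : (B.P : Subgroup (GL (Fin n) F)) //
        x⁻¹ * (h : GL (Fin n) F) * x ∈ B'.P} : ℂ)⁻¹ *
      ∑ h : {h : (B.P : Subgroup (GL (Fin n) F)) // x⁻¹ * (h : GL (Fin n) F) * x ∈ B'.P},
        B.pFun δ h.1 * conj (B'.pFun δ' ⟨_, h.2⟩) =
      (Nat.card I : ℂ)⁻¹ * ∑ h : I, G₀ (φ h) := by
    rw [Nat.card_congr (Equiv.subtypeEquivRight (fun h => (hmem h).symm))]
    congr 1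
    refine Fintype.sum_equiv (Equiv.subtypeEquivRight (fun h => (hmem h).symm)) _ _ fun h => ?_
    simp only [G₀, pFun, prodFun, map_prod, Finset.prod_mul_distrib]
    congr 1
    refine (Fintype.prod_equiv π _ _ fun a => ?_).symm
    congr 2
    refine congrArg _ ?_
    ext k l
    rw [castGL_apply]
    show (h.1 : GL (Fin n) F).val (B.e a _) (B.e a _) = _
    rw [show B'.projAll (⟨_, h.2⟩ : (B'.P : Subgroup (GL (Fin n) F))) (π a)
      = B'.proj (π a) ⟨_, h.2⟩ from rfl, proj_apply]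
    simp only [hx, conj_pm_apply]
    have hw : ∀ k' : Fin (B'.s (π a)),
        (wperm π hs) (B'.e (π a) k') = B.e a (finCongr (hs a).symm k') := fun k' => by
      rw [← Equiv.eq_symm_apply, wperm_symm_e]
      simp
    rw [hw, hw]
  rw [hrw, hsum]
  rw [Finset.prod_congr rfl (fun a _ => classInner_cast (hs a) (δ a) (δ' (π a)))]
  by_cases h : ∀ a, B.lab δ a = B'.lab δ' (π a)
  · rw [if_pos h, Finset.prod_eq_one fun a _ => ?_]
    exact if_pos (h a)
  · rw [if_neg h]
    obtain ⟨a, ha⟩ := not_forall.1 h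
    exact Finset.prod_eq_zero (Finset.mem_univ a) (if_neg ha)

/-- The Mackey formula for cuspidal systems. -/
theorem classInner_R (δ : B.Sys F) (hδ : B.CuspSys δ) (δ' : B'.Sys F) (hδ' : B'.CuspSys δ') :
    Cfsg.classInner (B.R δ) (B'.R δ')
      = (Nat.card {π : Fin B.r ≃ Fin B'.r // ∀ a, B.lab δ a = B'.lab δ' (π a)} : ℂ) := by
  rw [R, R, classInner_ind_ind_eq_sum (B.isClassFunction_pFun δ) (B'.isClassFunction_pFun δ')
    (ι := {π : Fin B.r ≃ Fin B'.r // ∀ a, B.s a = B'.s (π a)})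
    (fun π => pm (wperm π.1 π.2)) ?_ ?_]
  rotate_left
  · intro g hg
    obtain ⟨b, b', σ, hb, hb', he⟩ := CfsgLib.Unipotent.exists_bruhat g
    have hgeq : g = b⁻¹ * pm σ * b'⁻¹ := by rw [← he]; group
    rw [hgeq, kern_mul (B.isClassFunction_pFun δ) (B'.isClassFunction_pFun δ')
      ⟨b⁻¹, inv_mem (B.upper_mem_P hb)⟩ ⟨b'⁻¹, inv_mem (B'.upper_mem_P hb')⟩] at hg
    obtain ⟨π, hπ⟩ := exists_equiv_of_kern_ne_zero δ hδ δ' hδ' σ hg
    let πs : {π : Fin B.r ≃ Fin B'.r // ∀ a, B.s a = B'.s (π a)} :=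
      ⟨π, s_eq_of_compat σ π hπ⟩
    have hy : ∀ j, B'.β (((wperm π πs.2)⁻¹ * σ) j) = B'.β j := fun j => by
      rw [Equiv.Perm.mul_apply, Equiv.Perm.inv_def, wperm_compat, ← hπ, σ.symm_apply_apply]
    refine ⟨πs, ⟨b⁻¹, inv_mem (B.upper_mem_P hb)⟩,
      ⟨pm ((wperm π πs.2)⁻¹ * σ) * b'⁻¹, mul_mem (pm_mem_P _ hy) (inv_mem (B'.upper_mem_P hb'))⟩, ?_⟩
    rw [hgeq]
    simp only [πs, map_mul, map_inv]
    group
  · rintro π₁ π₂ ⟨a, b, h⟩
    exact Subtype.ext (equiv_eq_of_coset _ _ _ _ (wperm_compat π₁.1 π₁.2) (wperm_compat π₂.1 π₂.2) a b h)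
  · have hterm := fun π : {π : Fin B.r ≃ Fin B'.r // ∀ a, B.s a = B'.s (π a)} =>
      avg_kern_wperm δ δ' π.1 π.2
    rw [Finset.sum_congr rfl (fun π _ => hterm π), Finset.sum_boole, Nat.card_eq_fintype_card,
      Nat.cast_inj]
    refine Finset.card_bij' (fun π _ => ⟨π.1, ?_⟩) (fun π _ => ⟨π.1, fun a => congrArg Sigma.fst (π.2 a)⟩)
      (fun _ _ => Finset.mem_univ _) (fun π _ => by simp [π.2]) (fun _ _ => rfl) (fun _ _ => rfl)
    rename_i h
    exact (Finset.mem_filter.1 h).2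

/-- The multiset of labels. -/
def labels (δ : B.Sys F) : Multiset (Lab F) := univ.val.map (B.lab δ)

theorem exists_match (δ : B.Sys F) (δ' : B'.Sys F) (h : B.labels δ = B'.labels δ') :
    ∃ π : Fin B.r ≃ Fin B'.r, ∀ a, B.lab δ a = B'.lab δ' (π a) := by
  have hc : ∀ L : Lab F, Fintype.card {a // B.lab δ a = L} = Fintype.card {b // B'.lab δ' b = L} := by
    intro L
    have := congrArg (Multiset.count L) h
    simp only [labels, Multiset.count_map] at this
    rw [Fintype.card_subtype, Fintype.card_subtype, Finset.card_def, Finset.card_def,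
      Finset.filter_val, Finset.filter_val]
    simpa [eq_comm] using this
  let E : ∀ L : Lab F, {a // B.lab δ a = L} ≃ {b // B'.lab δ' b = L} := fun L =>
    Fintype.equivOfCardEq (hc L)
  exact ⟨Equiv.ofFiberEquiv E, fun a => (Equiv.ofFiberEquiv_map E a).symm⟩

theorem R_eq_of_labels (δ : B.Sys F) (hδ : B.CuspSys δ) (δ' : B'.Sys F) (hδ' : B'.CuspSys δ')
    (h : B.labels δ = B'.labels δ') : B.R δ = B'.R δ' := by
  obtain ⟨π₀, hπ₀⟩ := exists_match δ δ' h
  have e1 : Nat.card {π : Fin B.r ≃ Fin B.r // ∀ a, B.lab δ a = B.lab δ (π a)}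
      = Nat.card {π : Fin B.r ≃ Fin B'.r // ∀ a, B.lab δ a = B'.lab δ' (π a)} :=
    Nat.card_congr
      { toFun := fun π => ⟨π.1.trans π₀, fun a => (π.2 a).trans (hπ₀ _)⟩
        invFun := fun π => ⟨π.1.trans π₀.symm, fun a => (π.2 a).trans (by
          rw [Equiv.trans_apply, hπ₀, π₀.apply_symm_apply])⟩
        left_inv := fun π => Subtype.ext (Equiv.ext fun a => by simp)
        right_inv := fun π => Subtype.ext (Equiv.ext fun a => by simp) }
  have e2 : Nat.card {π : Fin B'.r ≃ Fin B.r // ∀ b, B'.lab δ' b = B.lab δ (π b)}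
      = Nat.card {π : Fin B.r ≃ Fin B'.r // ∀ a, B.lab δ a = B'.lab δ' (π a)} :=
    Nat.card_congr
      { toFun := fun π => ⟨π.1.symm, fun a => by rw [π.2, π.1.apply_symm_apply]⟩
        invFun := fun π => ⟨π.1.symm, fun a => by rw [π.2, π.1.apply_symm_apply]⟩
        left_inv := fun π => rfl
        right_inv := fun π => rfl }
  have e3 : Nat.card {π : Fin B'.r ≃ Fin B'.r // ∀ b, B'.lab δ' b = B'.lab δ' (π b)}
      = Nat.card {π : Fin B.r ≃ Fin B'.r // ∀ a, B.lab δ a = B'.lab δ' (π a)} :=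
    Nat.card_congr
      { toFun := fun π => ⟨π₀.trans π.1, fun a => (hπ₀ a).trans (π.2 _)⟩
        invFun := fun π => ⟨π₀.symm.trans π.1, fun b => by
          rw [Equiv.trans_apply, ← π.2, hπ₀, π₀.apply_symm_apply]⟩
        left_inv := fun π => Subtype.ext (Equiv.ext fun a => by simp)
        right_inv := fun π => Subtype.ext (Equiv.ext fun a => by simp) }
  rw [← sub_eq_zero]
  refine eq_zero_of_classInner_self ?_
  rw [classInner_sub_self, classInner_R δ hδ δ hδ, classInner_R δ hδ δ' hδ', classInner_R δ' hδ' δ hδ,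
    classInner_R δ' hδ' δ' hδ', e1, e2, e3]
  ring

theorem classInner_R_eq_zero (δ : B.Sys F) (hδ : B.CuspSys δ) (δ' : B'.Sys F) (hδ' : B'.CuspSys δ')
    (h : B.labels δ ≠ B'.labels δ') : Cfsg.classInner (B.R δ) (B'.R δ') = 0 := by
  rw [classInner_R δ hδ δ' hδ', Nat.cast_eq_zero, Nat.card_eq_zero]
  refine Or.inl ⟨fun π => h ?_⟩
  rw [labels, labels, show B.lab δ = B'.lab δ' ∘ π.1 from funext π.2, ← Multiset.map_map,
    Multiset.map_univ_val_equiv]

end Blk

end CfsgLib.GLCusp
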