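import Cfsg.Agent.GLCusp.Whittaker

/-!
# The norm of the Gelfand--Graev character and multiplicity one
-/

set_option autoImplicit false

noncomputable section

namespace CfsgLib.GLCusp

open Matrix Finset CfsgLib.Chars CfsgLib.Chars.Induced
open CfsgLib.Unipotent (pm)
open scoped Classical ComplexConjugate

variable {F : Type*} [Field F] [Fintype F] [DecidableEq F] {n : ℕ}

/-- Diagonal matrices. -/
def diagGL : (Fin n → Fˣ) →* GL (Fin n) F :=
  (Units.map (Matrix.diagonalRingHom (Fin n) F).toMonoidHom).comp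
    (MulEquiv.piUnits (M := fun _ : Fin n => F)).symm.toMonoidHom

theorem coe_diagGL (d : Fin n → Fˣ) :
    (diagGL d : Matrix (Fin n) (Fin n) F) = Matrix.diagonal fun i => (d i : F) := rfl

theorem exists_diagGL_mul_unit {b : GL (Fin n) F} (hb : CfsgLib.Unipotent.IsUpper b) :
    ∃ (d : Fin n → Fˣ) (u : GL (Fin n) F), b = diagGL d * u ∧ u ∈ Uu F n := by
  obtain ⟨t, u, htu, hu, ht⟩ := exists_diag_mul_unit hb
  have hne : ∀ i, (t : Matrix (Fin n) (Fin n) F) i i ≠ 0 := fun i h => by
    refine (Matrix.GeneralLinearGroup.det t).ne_zero ?_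
    rw [Matrix.GeneralLinearGroup.val_det_apply]
    refine Matrix.det_eq_zero_of_row_eq_zero i fun j => ?_
    rcases eq_or_ne i j with rfl | hij
    · exact h
    · exact ht i j hij
  refine ⟨fun i => Units.mk0 _ (hne i), u, ?_, hu⟩
  rw [htu]
  congr 1
  refine Units.ext (Matrix.ext fun i j => ?_)
  rw [coe_diagGL]
  rcases eq_or_ne i j with rfl | hij
  · simp
  · rw [Matrix.diagonal_apply_ne _ hij, ht i j hij]

theorem diag_conj_mem_Uu (d : Fin n → Fˣ) {u : GL (Fin n) F} (hu : u ∈ Uu F n) :
    diagGL d * u * (diagGL d)⁻¹ ∈ Uu F n := by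
  intro i j hij
  rw [← map_inv, Units.val_mul, Units.val_mul, coe_diagGL, coe_diagGL, Matrix.mul_diagonal,
    Matrix.diagonal_mul, hu i j hij]
  rcases eq_or_ne i j with rfl | hne
  · simp
  · simp [Matrix.one_apply_ne hne]

/-- The column of the nonzero entry in a row. -/
def nu (κ : Equiv.Perm (Fin n)) : Equiv.Perm (Fin n) := κ.trans Fin.revPerm

theorem nu_apply (κ : Equiv.Perm (Fin n)) (i : Fin n) : nu κ i = (κ i).rev := rfl

theorem adj_rev {i j : Fin n} : adj i.rev j.rev ↔ adj j i := by
  have h1 := i.isLt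
  have h2 := j.isLt
  simp only [adj, Fin.val_rev]
  omega

/-- Monomial matrices, by rows. -/
def mono (κ : Equiv.Perm (Fin n)) (dd : Fin n → Fˣ) : GL (Fin n) F :=
  diagGL dd * pm (nu κ).symm

theorem mono_apply (κ : Equiv.Perm (Fin n)) (dd : Fin n → Fˣ) (i j : Fin n) :
    ((mono κ dd : GL (Fin n) F) : Matrix (Fin n) (Fin n) F) i j
      = if nu κ i = j then (dd i : F) else 0 := by
  rw [mono, mul_pm_apply, coe_diagGL, Matrix.diagonal_apply]
  exact if_congr (Equiv.eq_symm_apply _) rfl rfl

/-- The monomial matrices supporting Whittaker functions. -/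
def Rel (κ : Equiv.Perm (Fin n)) (dd : Fin n → Fˣ) : Prop :=
  ∀ p q : Fin n, adj p q → κ q < κ p → adj (κ q) (κ p) ∧ dd p = dd q

theorem diagGL_mul_apply (d : Fin n → Fˣ) (g : GL (Fin n) F) (i j : Fin n) :
    ((diagGL d * g : GL (Fin n) F) : Matrix (Fin n) (Fin n) F) i j
      = (d i : F) * (g : Matrix (Fin n) (Fin n) F) i j := by
  rw [Units.val_mul, coe_diagGL, Matrix.diagonal_mul]

theorem exists_decomp (z : GL (Fin n) F) :
    ∃ (u v : GL (Fin n) F) (κ : Equiv.Perm (Fin n)) (dd : Fin n → Fˣ),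
      u ∈ Uu F n ∧ v ∈ Uu F n ∧ z = u * mono κ dd * v := by
  obtain ⟨b, b', σ, hb, hb', he⟩ := CfsgLib.Unipotent.exists_bruhat z
  have hinv : ∀ c : GL (Fin n) F, CfsgLib.Unipotent.IsUpper c → CfsgLib.Unipotent.IsUpper c⁻¹ := by
    intro c hc
    have : c⁻¹ ∈ finSubgroup (G := GL (Fin n) F) CfsgLib.Unipotent.IsUpper
        (fun i j h => by simp [h.ne']) (fun _ _ h h' => h.mul h') := inv_mem (show c ∈ _ from hc)
    exact this
  obtain ⟨d₁, u₁, h1, hu₁⟩ := exists_diagGL_mul_unit (hinv b hb)
  obtain ⟨d₂, u₂, h2, hu₂⟩ := exists_diagGL_mul_unit (hinv b' hb')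
  refine ⟨diagGL d₁ * u₁ * (diagGL d₁)⁻¹, u₂, σ⁻¹.trans Fin.revPerm,
    fun i => d₁ i * d₂ (σ.symm i), diag_conj_mem_Uu d₁ hu₁, hu₂, ?_⟩
  have hz : z = b⁻¹ * pm σ * b'⁻¹ := by rw [← he]; group
  have hm : (mono (σ⁻¹.trans Fin.revPerm) fun i => d₁ i * d₂ (σ.symm i) : GL (Fin n) F)
      = diagGL d₁ * (pm σ * diagGL d₂) := by
    refine Units.ext (Matrix.ext fun i j => ?_)
    rw [mono_apply, diagGL_mul_apply, pm_mul_apply, coe_diagGL, Matrix.diagonal_apply]
    simp only [nu_apply, Equiv.trans_apply, Fin.revPerm_apply, Fin.rev_rev, Equiv.Perm.inv_def,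
      Units.val_mul]
    split_ifs <;> simp
  rw [hz, h1, h2, hm]
  group

theorem root_mul_apply (p q : Fin n) (hpq : p ≠ q) (t : F) (g : GL (Fin n) F) (i j : Fin n) :
    ((root p q hpq t * g : GL (Fin n) F) : Matrix (Fin n) (Fin n) F) i j
      = (g : Matrix (Fin n) (Fin n) F) i j
        + if i = p then t * (g : Matrix (Fin n) (Fin n) F) q j else 0 := by
  rw [Units.val_mul, Matrix.mul_apply]
  simp only [root_apply, add_mul, Finset.sum_add_distrib]
  congr 1
  · simp [Matrix.one_apply]
  · by_cases h : i = p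
    · subst h
      simp
    · rw [if_neg h]
      exact Finset.sum_eq_zero fun k _ => by rw [if_neg (fun e => h e.1.symm), zero_mul]

theorem mul_root_apply (p q : Fin n) (hpq : p ≠ q) (t : F) (g : GL (Fin n) F) (i j : Fin n) :
    ((g * root p q hpq t : GL (Fin n) F) : Matrix (Fin n) (Fin n) F) i j
      = (g : Matrix (Fin n) (Fin n) F) i j
        + if j = q then (g : Matrix (Fin n) (Fin n) F) i p * t else 0 := by
  rw [Units.val_mul, Matrix.mul_apply]
  simp only [root_apply, mul_add, Finset.sum_add_distrib]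
  congr 1
  · simp [Matrix.one_apply]
  · by_cases h : j = q
    · subst h
      simp
    · rw [if_neg h]
      exact Finset.sum_eq_zero fun k _ => by rw [if_neg (fun e => h e.2.symm), mul_zero]

theorem root_mono (κ : Equiv.Perm (Fin n)) (dd : Fin n → Fˣ) (p q : Fin n) (hpq : p ≠ q) (t : F) :
    root p q hpq t * mono κ dd = (mono κ dd : GL (Fin n) F) *
      root (nu κ p) (nu κ q) ((nu κ).injective.ne hpq) (t * dd q / dd p) := by
  refine Units.ext (Matrix.ext fun i j => ?_)
  rw [root_mul_apply, mul_root_apply, mono_apply, mono_apply, mono_apply]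
  congr 1
  simp only [EmbeddingLike.apply_eq_iff_eq]
  by_cases hi : i = p <;> by_cases hj : j = nu κ q
  · subst hi hj
    simp only [if_true]
    field_simp
  · simp [hi, hj, Ne.symm hj]
  · simp [hi, hj]
  · simp [hi, hj]

theorem exists_witness (φ : AddChar F ℂ) (hφ : φ ≠ 1) (κ : Equiv.Perm (Fin n)) (dd : Fin n → Fˣ)
    (h : ¬ Rel κ dd) :
    ∃ (p q : Fin n) (hpq : p ≠ q) (t : F), adj p q ∧ nu κ p < nu κ q ∧
      φ t ≠ φ (supd (root (nu κ p) (nu κ q) ((nu κ).injective.ne hpq) (t * dd q / dd p) : GL (Fin n) F)) := by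
  obtain ⟨t₀, ht₀⟩ := AddChar.ne_one_iff.1 hφ
  simp only [Rel, not_forall] at h
  obtain ⟨p, q, hpq, hlt, hbad⟩ := h
  have hnu : nu κ p < nu κ q := by rw [nu_apply, nu_apply]; exact Fin.rev_lt_rev.2 hlt
  by_cases hadj : adj (κ q) (κ p)
  · have hd : dd p ≠ dd q := fun e => hbad ⟨hadj, e⟩
    have hA : adj (nu κ p) (nu κ q) := adj_rev.2 hadj
    set c : F := (dd q : F) / dd p with hc
    have hc1 : (1 : F) - c ≠ 0 := by
      intro e
      refine hd (Units.ext ?_)
      rw [sub_eq_zero, hc, eq_div_iff (dd p).ne_zero, one_mul] at e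
      exact e
    refine ⟨p, q, hpq.lt.ne, t₀ / (1 - c), hpq, hnu, ?_⟩
    rw [supd_root _ _ hA]
    intro e
    apply ht₀
    have e' : t₀ = t₀ / (1 - c) + -(t₀ / (1 - c) * c) := by
      field_simp
      ring
    rw [e', AddChar.map_add_eq_mul, e, mul_div_assoc, ← hc, ← AddChar.map_add_eq_mul, add_neg_cancel,
      AddChar.map_zero_eq_one]
  · refine ⟨p, q, hpq.lt.ne, t₀, hpq, hnu, ?_⟩
    have hA : ¬ adj (nu κ p) (nu κ q) := fun h => hadj (adj_rev.1 h)
    rw [show supd (root (nu κ p) (nu κ q) ((nu κ).injective.ne hpq.lt.ne) (t₀ * dd q / dd p) :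
      GL (Fin n) F) = 0 from ?_, AddChar.map_zero_eq_one]
    · exact ht₀
    · refine Finset.sum_eq_zero fun i _ => Finset.sum_eq_zero fun j _ => ?_
      split_ifs with hij
      · rw [root_apply, Matrix.one_apply_ne hij.lt.ne, if_neg, add_zero]
        rintro ⟨rfl, rfl⟩
        exact hA hij
      · rfl

/-! ## The shape of a relevant monomial matrix -/

theorem rel_key {κ : Equiv.Perm (Fin n)} {dd : Fin n → Fˣ} (h : Rel κ dd) {s : ℕ}
    (hge : ∀ i : Fin n, s ≤ i.val → s ≤ (κ i).val) {hsn : s < n} {j : Fin n} (hκj : κ j = ⟨s, hsn⟩)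
    (hjs : s ≤ j.val) : ∀ t, t ≤ j.val - s → ∀ i : Fin n, i.val + t = j.val →
      (κ i).val = s + t ∧ dd i = dd j := by
  intro t
  induction t using Nat.strong_induction_on with
  | _ t IHt =>
    intro ht i hit
    rcases Nat.eq_zero_or_pos t with rfl | htp
    · obtain rfl : i = j := Fin.ext (by omega)
      exact ⟨by rw [hκj]; simp, rfl⟩
    · let i' : Fin n := ⟨i.val + 1, by have := j.isLt; omega⟩
      obtain ⟨e1, e2⟩ := IHt (t - 1) (by omega) (by omega) i' (by simp [i']; omega)
      have hii' : adj i i' := rfl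
      rcases lt_trichotomy (κ i).val (κ i').val with hlt | heq | hgt
      · exfalso
        have hκs : s ≤ (κ i).val := hge i (by omega)
        let i'' : Fin n := ⟨j.val - ((κ i).val - s), by have := j.isLt; omega⟩
        obtain ⟨e3, -⟩ := IHt ((κ i).val - s) (by omega) (by omega) i'' (by simp [i'']; omega)
        have : κ i'' = κ i := Fin.ext (by omega)
        have := congrArg Fin.val (κ.injective this)
        simp [i''] at this
        omega
      · have := congrArg Fin.val (κ.injective (Fin.ext heq))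
        simp [i'] at this
      · obtain ⟨ha, hd⟩ := h i i' hii' (Fin.lt_def.2 hgt)
        unfold adj at ha
        exact ⟨by omega, hd.trans e2⟩

theorem rel_spec {κ : Equiv.Perm (Fin n)} {dd : Fin n → Fˣ} (h : Rel κ dd) :
    (∀ i, κ (κ i) = i) ∧ ∀ i, dd (κ i) = dd i := by
  let Good : ℕ → Prop := fun s => ∀ i : Fin n, i.val < s →
    (κ i).val < s ∧ κ (κ i) = i ∧ dd (κ i) = dd i
  suffices hg : ∀ k s, s + k = n → Good s → Good n by
    have := hg n 0 (zero_add n) (fun i hi => absurd hi (Nat.not_lt_zero _))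
    exact ⟨fun i => (this i i.isLt).2.1, fun i => (this i i.isLt).2.2⟩
  intro k
  induction k using Nat.strong_induction_on with
  | _ k IH =>
    intro s hsk hs
    rcases Nat.eq_zero_or_pos k with rfl | hk
    · rw [add_zero] at hsk; exact hsk ▸ hs
    have hsn : s < n := by omega
    let s₀ : Fin n := ⟨s, hsn⟩
    set j := κ.symm s₀ with hj
    have hκj : κ j = s₀ := κ.apply_symm_apply _
    have hge : ∀ i : Fin n, s ≤ i.val → s ≤ (κ i).val := by
      intro i hi
      by_contra hlt
      rw [not_le] at hlt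
      obtain ⟨h1, h2, -⟩ := hs (κ i) hlt
      have := κ.injective h2
      rw [this] at h1
      omega
    have hjs : s ≤ j.val := by
      by_contra hlt
      have := (hs j (not_le.1 hlt)).1
      rw [hκj] at this
      exact lt_irrefl s this
    have key : ∀ t, t ≤ j.val - s → ∀ i : Fin n, i.val + t = j.val →
        (κ i).val = s + t ∧ dd i = dd j := fun t ht i hit => rel_key h hge hκj hjs t ht i hit
    refine IH (n - (j.val + 1)) (by have := j.isLt; omega) (j.val + 1) (by have := j.isLt; omega) ?_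
    intro i hi
    rcases lt_or_ge i.val s with his | his
    · obtain ⟨h1, h2, h3⟩ := hs i his
      exact ⟨by omega, h2, h3⟩
    · obtain ⟨e1, e2⟩ := key (j.val - i.val) (by omega) i (by omega)
      obtain ⟨f1, f2⟩ := key (j.val - (κ i).val) (by omega) (κ i) (by omega)
      exact ⟨by omega, Fin.ext (by omega), f2.trans e2.symm⟩

theorem rel_dual {κ : Equiv.Perm (Fin n)} {dd : Fin n → Fˣ} (h : Rel κ dd) {i j : Fin n}
    (hij : i < j) (hadj : adj (κ j) (κ i)) : adj i j ∧ dd i = dd j := by
  obtain ⟨hinv, hdd⟩ := rel_spec h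
  obtain ⟨h1, h2⟩ := h (κ j) (κ i) hadj (by rwa [hinv, hinv])
  rw [hinv, hinv] at h1
  rw [hdd, hdd] at h2
  exact ⟨h1, h2.symm⟩

/-! ## The anti-automorphism -/

/-- Transposition in the antidiagonal. -/
def tau (g : GL (Fin n) F) : GL (Fin n) F :=
  ⟨Matrix.of fun i j => (g : Matrix (Fin n) (Fin n) F) j.rev i.rev,
    Matrix.of fun i j => ((g⁻¹ : GL (Fin n) F) : Matrix (Fin n) (Fin n) F) j.rev i.rev,
    by
      ext i k
      simp only [Matrix.mul_apply, Matrix.of_apply]
      rw [← Equiv.sum_comp Fin.revPerm]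
      simp only [Fin.revPerm_apply, Fin.rev_rev]
      calc ∑ x, (g : Matrix (Fin n) (Fin n) F) x i.rev *
            ((g⁻¹ : GL (Fin n) F) : Matrix (Fin n) (Fin n) F) k.rev x
          = ∑ x, ((g⁻¹ : GL (Fin n) F) : Matrix (Fin n) (Fin n) F) k.rev x *
            (g : Matrix (Fin n) (Fin n) F) x i.rev := Finset.sum_congr rfl fun x _ => mul_comm _ _
        _ = ((g⁻¹ * g : GL (Fin n) F) : Matrix (Fin n) (Fin n) F) k.rev i.rev := by
              rw [Units.val_mul, Matrix.mul_apply]
        _ = _ := by simp [Matrix.one_apply, eq_comm],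
    by
      ext i k
      simp only [Matrix.mul_apply, Matrix.of_apply]
      rw [← Equiv.sum_comp Fin.revPerm]
      simp only [Fin.revPerm_apply, Fin.rev_rev]
      calc ∑ x, ((g⁻¹ : GL (Fin n) F) : Matrix (Fin n) (Fin n) F) x i.rev *
            (g : Matrix (Fin n) (Fin n) F) k.rev x
          = ∑ x, (g : Matrix (Fin n) (Fin n) F) k.rev x *
            ((g⁻¹ : GL (Fin n) F) : Matrix (Fin n) (Fin n) F) x i.rev :=
              Finset.sum_congr rfl fun x _ => mul_comm _ _
        _ = ((g * g⁻¹ : GL (Fin n) F) : Matrix (Fin n) (Fin n) F) k.rev i.rev := by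
              rw [Units.val_mul, Matrix.mul_apply]
        _ = _ := by simp [Matrix.one_apply, eq_comm]⟩

theorem tau_apply (g : GL (Fin n) F) (i j : Fin n) :
    ((tau g : GL (Fin n) F) : Matrix (Fin n) (Fin n) F) i j
      = (g : Matrix (Fin n) (Fin n) F) j.rev i.rev := rfl

theorem tau_tau (g : GL (Fin n) F) : tau (tau g) = g :=
  Units.ext (Matrix.ext fun i j => by rw [tau_apply, tau_apply, Fin.rev_rev, Fin.rev_rev])

theorem tau_mul (g h : GL (Fin n) F) : tau (g * h) = tau h * tau g := by
  refine Units.ext (Matrix.ext fun i j => ?_)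
  rw [tau_apply, Units.val_mul, Units.val_mul, Matrix.mul_apply, Matrix.mul_apply,
    ← Equiv.sum_comp Fin.revPerm]
  refine Finset.sum_congr rfl fun k _ => ?_
  rw [tau_apply, tau_apply, mul_comm]
  rfl

theorem tau_mem {u : GL (Fin n) F} (hu : u ∈ Uu F n) : tau u ∈ Uu F n := by
  intro i j hij
  rw [tau_apply, hu _ _ (fun h => hij (Fin.rev_lt_rev.1 h))]
  simp [Matrix.one_apply, eq_comm]

theorem supd_tau (g : GL (Fin n) F) : supd (tau g) = supd g := by
  simp only [supd, tau_apply]
  rw [Finset.sum_comm, ← Equiv.sum_comp Fin.revPerm]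
  refine Finset.sum_congr rfl fun i _ => ?_
  rw [← Equiv.sum_comp Fin.revPerm]
  simp [adj_rev]

theorem tau_mono_of_rel {κ : Equiv.Perm (Fin n)} {dd : Fin n → Fˣ} (h : Rel κ dd) :
    tau (mono κ dd : GL (Fin n) F) = mono κ dd := by
  obtain ⟨hinv, hdd⟩ := rel_spec h
  refine Units.ext (Matrix.ext fun i j => ?_)
  rw [tau_apply, mono_apply, mono_apply]
  by_cases e : nu κ i = j
  · subst e
    rw [if_pos rfl, if_pos]
    · rw [nu_apply, Fin.rev_rev, hdd]
    · rw [nu_apply, nu_apply, Fin.rev_rev, hinv]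
  · rw [if_neg e, if_neg]
    intro e'
    apply e
    rw [nu_apply, Fin.rev_inj] at e'
    rw [nu_apply, ← e', hinv, Fin.rev_rev]

theorem tau_mono (κ : Equiv.Perm (Fin n)) (dd : Fin n → Fˣ) :
    ∃ (κ' : Equiv.Perm (Fin n)) (dd' : Fin n → Fˣ), tau (mono κ dd : GL (Fin n) F) = mono κ' dd' := by
  refine ⟨κ.symm, fun i => dd (κ.symm i), ?_⟩
  refine Units.ext (Matrix.ext fun i j => ?_)
  rw [tau_apply, mono_apply, mono_apply]
  by_cases e : nu κ.symm i = j
  · subst e
    rw [if_pos rfl, if_pos]
    · rw [nu_apply, Fin.rev_rev]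
    · rw [nu_apply, nu_apply, Fin.rev_rev, Equiv.apply_symm_apply]
  · rw [if_neg e, if_neg]
    intro e'
    apply e
    rw [nu_apply, Fin.rev_inj] at e'
    rw [nu_apply, ← e', Equiv.symm_apply_apply, Fin.rev_rev]

/-- Functions transforming by the nondegenerate character on both sides. -/
def IsBiPsi (φ : AddChar F ℂ) (f : GL (Fin n) F → ℂ) : Prop :=
  ∀ u z v, u ∈ Uu F n → v ∈ Uu F n → f (u * z * v) = φ (supd u) * φ (supd v) * f z

theorem biPsi_mono_eq_zero {φ : AddChar F ℂ} (hφ : φ ≠ 1) {f : GL (Fin n) F → ℂ} (hf : IsBiPsi φ f)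
    (κ : Equiv.Perm (Fin n)) (dd : Fin n → Fˣ) (h : ¬ Rel κ dd) : f (mono κ dd) = 0 := by
  obtain ⟨p, q, hpq, t, hadj, hnu, hne⟩ := exists_witness φ hφ κ dd h
  have h1 := hf (root p q hpq t) (mono κ dd) 1 (root_pat _ _ _ _ hadj.lt _) (one_mem _)
  have h2 := hf 1 (mono κ dd) (root (nu κ p) (nu κ q) ((nu κ).injective.ne hpq) (t * dd q / dd p))
    (one_mem _) (root_pat _ _ _ _ hnu _)
  have hone : φ (supd (1 : GL (Fin n) F)) = 1 := (psiHom φ n).map_one
  rw [mul_one, root_mono, hone, mul_one, supd_root p q hadj] at h1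
  rw [one_mul, hone, one_mul] at h2
  rw [h2] at h1
  by_contra h0
  exact hne (mul_right_cancel₀ h0 h1).symm

theorem biPsi_tau {φ : AddChar F ℂ} (hφ : φ ≠ 1) {f : GL (Fin n) F → ℂ} (hf : IsBiPsi φ f)
    (z : GL (Fin n) F) : f (tau z) = f z := by
  obtain ⟨u, v, κ, dd, hu, hv, rfl⟩ := exists_decomp z
  rw [tau_mul, tau_mul, ← mul_assoc, hf _ _ _ (tau_mem hv) (tau_mem hu), hf _ _ _ hu hv, supd_tau,
    supd_tau, mul_comm (φ (supd v))]
  congr 1
  by_cases h : Rel κ dd
  · rw [tau_mono_of_rel h]
  · obtain ⟨κ', dd', e⟩ := tau_mono (F := F) κ dd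
    rw [e, biPsi_mono_eq_zero hφ hf κ dd h, biPsi_mono_eq_zero hφ hf κ' dd']
    intro h'
    have e' : (mono κ dd : GL (Fin n) F) = mono κ' dd' := by
      rw [← tau_tau (mono κ dd), e, tau_mono_of_rel h']
    refine h ?_
    have hk : κ = κ' := Equiv.ext fun i => by
      have h1 := congrArg (fun g : GL (Fin n) F => (g : Matrix (Fin n) (Fin n) F) i (nu κ i)) e'
      simp only [mono_apply, if_true] at h1
      by_contra hne
      rw [if_neg] at h1
      · exact (dd i).ne_zero h1
      · rw [nu_apply, nu_apply, Fin.rev_inj]; exact Ne.symm hne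
    subst hk
    have hd : dd = dd' := funext fun i => Units.ext (by
      have h1 := congrArg (fun g : GL (Fin n) F => (g : Matrix (Fin n) (Fin n) F) i (nu κ i)) e'
      simpa [mono_apply] using h1)
    exact hd ▸ h'

/-! ## Multiplicity one -/

theorem conj_psi (φ : AddChar F ℂ) (u : (Uu F n : Subgroup (GL (Fin n) F))) :
    conj (psi φ n u) = psi φ⁻¹ n u := by
  rw [psi, psi, AddChar.inv_apply']
  exact (AddChar.inv_apply_eq_conj φ _).symm

set_option maxHeartbeats 1600000 in
theorem wh_le_one {φ : AddChar F ℂ} (hφ : φ ≠ 1) (χ : Cfsg.IrrCharacter (GL (Fin n) F)) :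
    ∃ m : ℕ, m ≤ 1 ∧ wh φ (χ : GL (Fin n) F → ℂ) = m := by
  obtain ⟨d, ρ, hρ, hχ⟩ := χ.2
  rw [isIrreducible_iff_forall] at hρ
  set U : Subgroup (GL (Fin n) F) := Uu F n
  set ω : AddChar F ℂ := φ⁻¹ with hω
  let c : U → ℂ := fun u => ω (supd (u : GL (Fin n) F))
  have hc : ∀ u v : U, c (u * v) = c u * c v := fun u v => (psiHom ω n).map_mul u v
  have hci : ∀ u : U, c u⁻¹ * c u = 1 := fun u => by
    rw [← hc, inv_mul_cancel]; exact (psiHom ω n).map_one
  let N : ℂ := Fintype.card U
  have hN : N ≠ 0 := Nat.cast_ne_zero.2 Fintype.card_ne_zero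
  let E : Module.End ℂ (Fin d → ℂ) := ∑ u : U, c u • ρ (u : GL (Fin n) F)
  have hEl : ∀ v : U, ρ (v : GL (Fin n) F) * E = c v⁻¹ • E := by
    intro v
    simp only [E, Finset.mul_sum, Finset.smul_sum, smul_smul]
    refine Fintype.sum_equiv (Equiv.mulLeft v) _ _ fun u => ?_
    simp only [Equiv.coe_mulLeft, Subgroup.coe_mul, map_mul, mul_smul_comm]
    rw [hc, ← mul_assoc, hci, one_mul]
  have hEE : E * E = N • E := by
    have : E * E = ∑ u : U, c u • (ρ (u : GL (Fin n) F) * E) := by
      conv_lhs => arg 1; simp only [E]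
      rw [Finset.sum_mul]
      simp [smul_mul_assoc]
    rw [this, Finset.sum_congr rfl (fun u _ => by rw [hEl, smul_smul, mul_comm, hci, one_smul]),
      Finset.sum_const, Finset.card_univ, ← Nat.cast_smul_eq_nsmul ℂ]
  -- operators as sums over the group
  have h2 : ∀ g : GL (Fin n) F, E * ρ g * E = ∑ z : GL (Fin n) F,
      (∑ x : U × U, if (x.1 : GL (Fin n) F) * g * (x.2 : GL (Fin n) F) = z
        then c x.1 * c x.2 else 0) • ρ z := by
    intro g
    simp only [Finset.sum_smul]
    rw [Finset.sum_comm, Fintype.sum_prod_type]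
    simp only [ite_smul, zero_smul, Finset.sum_ite_eq, Finset.mem_univ, if_true]
    simp only [E, mul_assoc]
    simp only [Finset.sum_mul]
    simp only [Finset.mul_sum]
    refine Finset.sum_congr rfl fun u _ => Finset.sum_congr rfl fun v _ => ?_
    simp [map_mul, smul_smul, smul_mul_assoc, mul_smul_comm, mul_assoc, mul_comm (c u)]
  have h3 : ∀ g h : GL (Fin n) F, E * ρ g * E * ρ h * E = ∑ z : GL (Fin n) F,
      (∑ x : U × U × U, if (x.1 : GL (Fin n) F) * g * (x.2.1 : GL (Fin n) F) * h *
        (x.2.2 : GL (Fin n) F) = z then c x.1 * c x.2.1 * c x.2.2 else 0) • ρ z := by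
    intro g h
    simp only [Finset.sum_smul]
    rw [Finset.sum_comm, Fintype.sum_prod_type]
    simp only [ite_smul, zero_smul, Finset.sum_ite_eq, Finset.mem_univ, if_true]
    simp only [Fintype.sum_prod_type]
    simp only [E, mul_assoc]
    simp only [Finset.sum_mul]
    simp only [Finset.mul_sum]
    refine Finset.sum_congr rfl fun u _ => Finset.sum_congr rfl fun v _ => Finset.sum_congr rfl fun w _ => ?_
    simp [map_mul, smul_smul, smul_mul_assoc, mul_smul_comm, mul_assoc, mul_comm, mul_left_comm]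
  let τU : U ≃ U :=
    { toFun := fun u => ⟨tau u.1, tau_mem u.2⟩
      invFun := fun u => ⟨tau u.1, tau_mem u.2⟩
      left_inv := fun u => Subtype.ext (tau_tau _)
      right_inv := fun u => Subtype.ext (tau_tau _) }
  have hcτ : ∀ u : U, c (τU u) = c u := fun u => congrArg ω (supd_tau _)
  have hω1 : ω ≠ 1 := inv_ne_one.2 hφ
  have hbi2 : ∀ g : GL (Fin n) F, IsBiPsi ω (fun z =>
      ∑ x : U × U, if (x.1 : GL (Fin n) F) * g * (x.2 : GL (Fin n) F) = z then c x.1 * c x.2 else 0) := by
    intro g u z v hu hv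
    simp only [Finset.mul_sum]
    let u' : U := ⟨u, hu⟩
    let v' : U := ⟨v, hv⟩
    refine (Fintype.sum_equiv ((Equiv.mulLeft u').prodCongr (Equiv.mulRight v')) _ _ fun x => ?_).symm
    simp only [Equiv.prodCongr_apply, Prod.map, Equiv.coe_mulLeft, Equiv.coe_mulRight, Subgroup.coe_mul]
    have e : (u * (x.1 : GL (Fin n) F) * g * ((x.2 : GL (Fin n) F) * v) = u * z * v) ↔
        (x.1 : GL (Fin n) F) * g * (x.2 : GL (Fin n) F) = z := by
      constructor
      · intro e
        have := congrArg (fun y => u⁻¹ * y * v⁻¹) e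
        simpa [mul_assoc] using this
      · intro e
        rw [← e]; group
    rw [mul_ite, mul_zero]
    refine if_congr e.symm ?_ rfl
    rw [hc, hc, show c u' = ω (supd u) from rfl, show c v' = ω (supd v) from rfl]
    ring
  have hbi3 : ∀ g h : GL (Fin n) F, IsBiPsi ω (fun z => ∑ x : U × U × U,
      if (x.1 : GL (Fin n) F) * g * (x.2.1 : GL (Fin n) F) * h * (x.2.2 : GL (Fin n) F) = z
        then c x.1 * c x.2.1 * c x.2.2 else 0) := by
    intro g h u z v hu hv
    simp only [Finset.mul_sum]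
    let u' : U := ⟨u, hu⟩
    let v' : U := ⟨v, hv⟩
    refine (Fintype.sum_equiv ((Equiv.mulLeft u').prodCongr ((Equiv.refl U).prodCongr (Equiv.mulRight v')))
      _ _ fun x => ?_).symm
    simp only [Equiv.prodCongr_apply, Prod.map, Equiv.coe_mulLeft, Equiv.coe_mulRight, Equiv.refl_apply,
      Subgroup.coe_mul]
    have e : (u * (x.1 : GL (Fin n) F) * g * (x.2.1 : GL (Fin n) F) * h * ((x.2.2 : GL (Fin n) F) * v) = u * z * v) ↔
        (x.1 : GL (Fin n) F) * g * (x.2.1 : GL (Fin n) F) * h * (x.2.2 : GL (Fin n) F) = z := by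
      constructor
      · intro e
        have := congrArg (fun y => u⁻¹ * y * v⁻¹) e
        simpa [mul_assoc] using this
      · intro e
        rw [← e]; group
    rw [mul_ite, mul_zero]
    refine if_congr e.symm ?_ rfl
    rw [hc, hc, show c u' = ω (supd u) from rfl, show c v' = ω (supd v) from rfl]
    ring
  have hτ1 : ∀ g : GL (Fin n) F, E * ρ (tau g) * E = E * ρ g * E := by
    intro g
    rw [h2, h2]
    refine Finset.sum_congr rfl fun z _ => ?_
    congr 1
    refine Eq.trans ?_ (biPsi_tau hω1 (hbi2 g) z)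
    refine Fintype.sum_equiv ((τU.prodCongr τU).trans (Equiv.prodComm U U)) _ _ fun x => ?_
    simp only [Equiv.trans_apply, Equiv.prodCongr_apply, Equiv.prodComm_apply, Prod.map, Prod.swap, hcτ]
    refine if_congr ?_ (mul_comm _ _) rfl
    have e : tau ((x.1 : GL (Fin n) F) * tau g * (x.2 : GL (Fin n) F)) = (τU x.2 : GL (Fin n) F) * g * τU x.1 := by
      rw [tau_mul, tau_mul, tau_tau, mul_assoc]; rfl
    rw [← e]
    exact ⟨fun h => by rw [h], fun h => by rw [← tau_tau ((x.1 : GL (Fin n) F) * tau g * (x.2 : GL (Fin n) F)), h, tau_tau]⟩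
  have hτ2 : ∀ g h : GL (Fin n) F, E * ρ g * E * ρ h * E = E * ρ (tau h) * E * ρ (tau g) * E := by
    intro g h
    rw [h3, h3]
    refine Finset.sum_congr rfl fun z _ => ?_
    congr 1
    refine Eq.trans (biPsi_tau hω1 (hbi3 g h) z).symm ?_
    refine Fintype.sum_equiv (((τU.prodCongr (τU.prodCongr τU)).trans
      { toFun := fun x => (x.2.2, x.2.1, x.1)
        invFun := fun x => (x.2.2, x.2.1, x.1)
        left_inv := fun _ => rfl
        right_inv := fun _ => rfl })) _ _ fun x => ?_
    simp only [Equiv.trans_apply, Equiv.prodCongr_apply, Prod.map, Equiv.coe_fn_mk, hcτ]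
    refine if_congr ?_ (by ring) rfl
    have e : tau ((x.1 : GL (Fin n) F) * g * (x.2.1 : GL (Fin n) F) * h * (x.2.2 : GL (Fin n) F))
        = (τU x.2.2 : GL (Fin n) F) * tau h * τU x.2.1 * tau g * τU x.1 := by
      simp only [tau_mul, mul_assoc]; rfl
    rw [← e]
    exact ⟨fun he => by rw [he, tau_tau], fun he => by rw [← he, tau_tau]⟩
  have hcomm : ∀ g h : GL (Fin n) F,
      (E * ρ g * E) * (E * ρ h * E) = (E * ρ h * E) * (E * ρ g * E) := by
    intro g h
    calc (E * ρ g * E) * (E * ρ h * E) = N • (E * ρ g * E * ρ h * E) := by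
          rw [show (E * ρ g * E) * (E * ρ h * E) = E * ρ g * (E * E) * ρ h * E by simp only [mul_assoc],
            hEE]
          simp only [mul_smul_comm, smul_mul_assoc]
      _ = N • (E * ρ (tau h) * E * ρ (tau g) * E) := by rw [hτ2]
      _ = (E * ρ (tau h) * E) * (E * ρ (tau g) * E) := by
          rw [show (E * ρ (tau h) * E) * (E * ρ (tau g) * E) = E * ρ (tau h) * (E * E) * ρ (tau g) * E
            by simp only [mul_assoc], hEE]
          simp only [mul_smul_comm, smul_mul_assoc]
      _ = _ := by rw [hτ1, hτ1]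
  -- the rank of the idempotent
  set P : Module.End ℂ (Fin d → ℂ) := N⁻¹ • E with hP
  have hPidem : IsIdempotentElem P := by
    show P * P = P
    rw [hP, smul_mul_smul_comm, hEE, smul_smul]
    congr 1
    field_simp
  have hrank : Module.finrank ℂ (LinearMap.range P) ≤ 1 := by
    set W := LinearMap.range P with hW
    rcases eq_or_ne W ⊥ with hbot | hbot
    · rw [hbot]; simp
    let ops : GL (Fin n) F → Module.End ℂ (Fin d → ℂ) := fun g => E * ρ g * E
    have hWinv : ∀ g, ∀ w ∈ W, ops g w ∈ W := fun g w _ => by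
      refine ⟨N • (ρ g * E) w, ?_⟩
      rw [map_smul, hP, LinearMap.smul_apply, smul_smul, mul_inv_cancel₀ hN, one_smul]
      rfl
    have hex : ∃ k, ∃ K : Submodule ℂ (Fin d → ℂ), K ≤ W ∧ K ≠ ⊥ ∧ (∀ g, ∀ w ∈ K, ops g w ∈ K) ∧
        Module.finrank ℂ K = k := ⟨_, W, le_rfl, hbot, hWinv, rfl⟩
    obtain ⟨K, hKW, hKne, hKinv, hKr⟩ := Nat.find_spec hex
    have hscal : ∀ g, ∃ μ : ℂ, ∀ w ∈ K, ops g w = μ • w := by
      intro g
      have : Nontrivial K := Submodule.nontrivial_iff_ne_bot.2 hKne
      obtain ⟨μ, hμ⟩ := Module.End.exists_eigenvalue ((ops g).restrict (hKinv g))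
      obtain ⟨w, hw⟩ := hμ.exists_hasEigenvector
      let K' : Submodule ℂ (Fin d → ℂ) := K ⊓ LinearMap.ker (ops g - μ • (1 : Module.End ℂ (Fin d → ℂ)))
      have hw' : (w : Fin d → ℂ) ∈ K' := ⟨w.2, by
        have := congrArg Subtype.val hw.apply_eq_smul
        simp only [LinearMap.restrict_coe_apply, Submodule.coe_smul] at this
        simp [LinearMap.mem_ker, this]⟩
      have hK'ne : K' ≠ ⊥ := fun e => hw.2 (Subtype.ext (by simpa [e] using hw'))
      have hK'inv : ∀ g', ∀ v ∈ K', ops g' v ∈ K' := by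
        rintro g' v ⟨hv1, hv2⟩
        refine ⟨hKinv g' v hv1, ?_⟩
        simp only [SetLike.mem_coe, LinearMap.mem_ker, LinearMap.sub_apply, LinearMap.smul_apply,
          Module.End.one_apply, sub_eq_zero] at hv2 ⊢
        have hgg : ops g (ops g' v) = ops g' (ops g v) := by
          show ((ops g) * (ops g')) v = ((ops g') * (ops g)) v
          rw [hcomm]
        rw [hgg, hv2, map_smul]
      have hle := Nat.find_min' hex ⟨K', inf_le_left.trans hKW, hK'ne, hK'inv, rfl⟩
      have hKK : K' = K := Submodule.eq_of_le_of_finrank_le inf_le_left (hKr.trans_le hle)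
      refine ⟨μ, fun v hv => ?_⟩
      rw [← hKK] at hv
      simpa [LinearMap.mem_ker, sub_eq_zero] using hv.2
    obtain ⟨w, hwK, hw0⟩ := K.exists_mem_ne_zero_of_ne_bot hKne
    have hPw : P w = w := (LinearMap.IsIdempotentElem.isProj_range _ hPidem).map_id w (hKW hwK)
    have hspan : Submodule.span ℂ (Set.range fun g => ρ g w) = ⊤ := by
      refine (hρ.2 _ fun g v hv => ?_).resolve_left ?_
      · induction hv using Submodule.span_induction with
        | mem x hx =>
          obtain ⟨g', rfl⟩ := hx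
          exact Submodule.subset_span ⟨g * g', by simp [map_mul]⟩
        | zero => simp
        | add x y _ _ hx hy => rw [map_add]; exact add_mem hx hy
        | smul a x _ hx => rw [map_smul]; exact Submodule.smul_mem _ a hx
      · intro e
        have : w ∈ Submodule.span ℂ (Set.range fun g => ρ g w) := Submodule.subset_span ⟨1, by simp⟩
        rw [e] at this
        exact hw0 this
    have hWle : W ≤ ℂ ∙ w := by
      rw [hW, LinearMap.range_eq_map, ← hspan, Submodule.map_span, Submodule.span_le]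
      rintro _ ⟨_, ⟨g, rfl⟩, rfl⟩
      obtain ⟨μ, hμ⟩ := hscal g
      refine Submodule.mem_span_singleton.2 ⟨N⁻¹ * N⁻¹ * μ, ?_⟩
      conv_rhs => rw [← hPw]
      rw [mul_smul, ← hμ w hwK]
      simp only [ops, hP, Module.End.mul_apply, LinearMap.smul_apply, map_smul, smul_smul]
    exact (Submodule.finrank_mono hWle).trans (finrank_span_singleton hw0).le
  refine ⟨Module.finrank ℂ (LinearMap.range P), hrank, ?_⟩
  rw [← (LinearMap.IsIdempotentElem.isProj_range _ hPidem).trace, hP, map_smul, map_sum, wh,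
    Cfsg.classInner, smul_eq_mul, Nat.card_eq_fintype_card]
  congr 1
  refine Finset.sum_congr rfl fun u _ => ?_
  rw [map_smul, smul_eq_mul, conj_psi, mul_comm, ← hχ]
  rfl

/-! ## The norm of the Gelfand--Graev character -/

/-- The relevant monomial data. -/
abbrev RelData (F : Type*) [Field F] [Fintype F] [DecidableEq F] (n : ℕ) : Type _ :=
  {x : Equiv.Perm (Fin n) × (Fin n → Fˣ) // Rel x.1 x.2}

theorem classInner_gg_gg {φ : AddChar F ℂ} (hφ : φ ≠ 1) :
    Cfsg.classInner (gg φ n) (gg φ n) = (Nat.card (RelData F n) : ℂ) := by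
  rw [gg, classInner_ind_ind_eq_sum (isClassFunction_psi φ n) (isClassFunction_psi φ n)
    (ι := RelData F n) (fun x => mono x.1.1 x.1.2) ?_ ?_]
  rotate_left
  · intro g hg
    obtain ⟨u, v, κ, dd, hu, hv, rfl⟩ := exists_decomp g
    rw [kern_mul (isClassFunction_psi φ n) (isClassFunction_psi φ n) ⟨u, hu⟩ ⟨v, hv⟩] at hg
    refine ⟨⟨(κ, dd), ?_⟩, ⟨u, hu⟩, ⟨v, hv⟩, rfl⟩
    by_contra h
    obtain ⟨p, q, hpq, t, hadj, hnu, hne⟩ := exists_witness φ hφ κ dd h
    set x : GL (Fin n) F := mono κ dd with hx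
    set s : F := t * dd q / dd p with hs
    let r₀ : (Uu F n : Subgroup (GL (Fin n) F)) := ⟨_, root_pat _ p q hpq hadj.lt t⟩
    let r₁ : (Uu F n : Subgroup (GL (Fin n) F)) :=
      ⟨_, root_pat _ (nu κ p) (nu κ q) ((nu κ).injective.ne hpq) hnu s⟩
    set T := kern (Uu F n) (Uu F n) (psi φ n) (psi φ n) x with hT
    have key : T = (psi φ n r₀ * conj (psi φ n r₁)) * T := by
      rw [hT, kern, Finset.mul_sum]
      symm
      refine Fintype.sum_equiv (Equiv.mulRight r₀) _ _ fun a => ?_
      simp only [Equiv.coe_mulRight, psi_eq, map_mul]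
      have e : x⁻¹ * ((a * r₀ : (Uu F n : Subgroup (GL (Fin n) F))) : GL (Fin n) F) * x
          = (x⁻¹ * (a : GL (Fin n) F) * x) * r₁ := by
        have := root_mono κ dd p q hpq t
        rw [← hx, ← hs] at this
        simp only [Subgroup.coe_mul, r₀, r₁, mul_assoc, this]
      rw [e]
      by_cases hy : x⁻¹ * (a : GL (Fin n) F) * x ∈ Uu F n
      · rw [extendByZero_mem _ (mul_mem hy r₁.2), extendByZero_mem _ hy]
        rw [show (⟨x⁻¹ * (a : GL (Fin n) F) * x * r₁, mul_mem hy r₁.2⟩ :
          (Uu F n : Subgroup (GL (Fin n) F))) = ⟨_, hy⟩ * r₁ from rfl, map_mul, map_mul]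
        ring
      · rw [extendByZero_notMem _ hy, extendByZero_notMem]
        · simp
        · intro h'
          exact hy (by simpa using mul_mem h' (inv_mem r₁.2))
    have h1 : psi φ n r₀ * conj (psi φ n r₁) ≠ 1 := by
      intro e
      refine hne ?_
      rw [conj_psi, psi, psi, supd_root p q hadj, AddChar.inv_apply'] at e
      exact (mul_inv_eq_one₀ (φ.val_isUnit _).ne_zero).1 e
    exact hg (by_contra fun hT0 => h1 (mul_right_cancel₀ hT0 ((one_mul T).symm ▸ key.symm)))
  · rintro ⟨⟨κ, dd⟩, h⟩ ⟨⟨κ', dd'⟩, h'⟩ ⟨a, b, e⟩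
    have e' : ((a⁻¹ : (Uu F n : Subgroup (GL (Fin n) F))) : GL (Fin n) F) * mono κ' dd'
        = mono κ dd * (b : GL (Fin n) F) := by
      simp only at e
      rw [e, Subgroup.coe_inv, mul_assoc (a : GL (Fin n) F), inv_mul_cancel_left]
    have ent : ∀ i j, ((a⁻¹ : (Uu F n : Subgroup (GL (Fin n) F))) : GL (Fin n) F).val i ((nu κ').symm j)
          * (dd' ((nu κ').symm j) : F) = (dd i : F) * ((b : GL (Fin n) F).val (nu κ i) j) := by
      intro i j
      have h1 := congrArg (fun g : GL (Fin n) F => (g : Matrix (Fin n) (Fin n) F) i j) e'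
      simp only [Units.val_mul, Matrix.mul_apply, mono_apply] at h1
      rw [Finset.sum_eq_single ((nu κ').symm j) (fun k _ hk => by
          rw [if_neg (fun e => hk (by rw [← e, Equiv.symm_apply_apply])), mul_zero]) (by simp),
        if_pos (Equiv.apply_symm_apply _ _), Finset.sum_eq_single (nu κ i) (fun k _ hk => by
          rw [if_neg (Ne.symm hk), zero_mul]) (by simp), if_pos rfl] at h1
      exact h1
    have hle : ∀ i, (nu κ i).val ≤ (nu κ' i).val := by
      intro i
      by_contra hlt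
      rw [not_le, ← Fin.lt_def] at hlt
      have h1 := ent i (nu κ' i)
      rw [Equiv.symm_apply_apply, (a⁻¹).2 i i (lt_irrefl _), Matrix.one_apply_eq, one_mul,
        b.2 (nu κ i) (nu κ' i) (fun h => lt_asymm h hlt), Matrix.one_apply_ne hlt.ne', mul_zero] at h1
      exact (dd' i).ne_zero h1
    have hsum : ∑ i, (nu κ i).val = ∑ i, (nu κ' i).val := by
      rw [Equiv.sum_comp (nu κ) (fun i : Fin n => i.val), Equiv.sum_comp (nu κ') (fun i : Fin n => i.val)]
    have hnu : nu κ = nu κ' := Equiv.ext fun i => Fin.ext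
      ((Finset.sum_eq_sum_iff_of_le fun i _ => hle i).1 hsum i (Finset.mem_univ i))
    have hκ : κ = κ' := Equiv.ext fun i => Fin.rev_inj.1 (congrArg (fun e : Equiv.Perm (Fin n) => e i) hnu)
    subst hκ
    have hd : dd = dd' := funext fun i => Units.ext (by
      have h1 := ent i (nu κ i)
      rw [Equiv.symm_apply_apply, (a⁻¹).2 i i (lt_irrefl _), Matrix.one_apply_eq, one_mul,
        b.2 (nu κ i) (nu κ i) (lt_irrefl _), Matrix.one_apply_eq, mul_one] at h1
      exact h1.symm)
    subst hd
    rfl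
  · have hterm : ∀ x : RelData F n,
        (Nat.card {h : (Uu F n : Subgroup (GL (Fin n) F)) // (mono x.1.1 x.1.2 : GL (Fin n) F)⁻¹ *
          (h : GL (Fin n) F) * mono x.1.1 x.1.2 ∈ Uu F n} : ℂ)⁻¹ *
          kern (Uu F n) (Uu F n) (psi φ n) (psi φ n) (mono x.1.1 x.1.2) = 1 := by
      rintro ⟨⟨κ, dd⟩, hrel⟩
      simp only
      change Rel κ dd at hrel
      set x : GL (Fin n) F := mono κ dd with hx
      have hI : (Nat.card {h : (Uu F n : Subgroup (GL (Fin n) F)) //
          x⁻¹ * (h : GL (Fin n) F) * x ∈ Uu F n} : ℂ) ≠ 0 := by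
        have : Nonempty {h : (Uu F n : Subgroup (GL (Fin n) F)) //
          x⁻¹ * (h : GL (Fin n) F) * x ∈ Uu F n} := ⟨⟨1, by simp⟩⟩
        exact Nat.cast_ne_zero.2 Nat.card_pos.ne'
      rw [kern_eq, Finset.sum_congr rfl (fun h _ => ?_), Finset.sum_const, nsmul_eq_mul, mul_one,
        Finset.card_univ, ← Nat.card_eq_fintype_card, inv_mul_cancel₀ hI]
      set y : GL (Fin n) F := x⁻¹ * (h.1 : GL (Fin n) F) * x with hy
      have hent : ∀ i j, (dd i : F) * (y : Matrix (Fin n) (Fin n) F) (nu κ i) (nu κ j)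
          = (h.1 : GL (Fin n) F).val i j * dd j := by
        intro i j
        have e : x * y = (h.1 : GL (Fin n) F) * x := by rw [hy]; group
        have h1 := congrArg (fun g : GL (Fin n) F => (g : Matrix (Fin n) (Fin n) F) i (nu κ j)) e
        simp only [Units.val_mul, Matrix.mul_apply, hx, mono_apply] at h1
        rw [Finset.sum_eq_single (nu κ i) (fun k _ hk => by rw [if_neg (Ne.symm hk), zero_mul]) (by simp),
          if_pos rfl, Finset.sum_eq_single j (fun k _ hk => by
            rw [if_neg (fun e => hk ((nu κ).injective e)), mul_zero]) (by simp), if_pos rfl] at h1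
        exact h1
      have hs : supd y = supd (h.1 : GL (Fin n) F) := by
        simp only [supd]
        rw [← Equiv.sum_comp (nu κ)]
        refine Finset.sum_congr rfl fun i _ => ?_
        rw [← Equiv.sum_comp (nu κ)]
        refine Finset.sum_congr rfl fun j _ => ?_
        by_cases hij : i < j
        · by_cases hnu : nu κ i < nu κ j
          · by_cases ha : adj i j
            · obtain ⟨h1, h2⟩ := hrel i j ha (Fin.rev_lt_rev.1 hnu)
              rw [if_pos (show adj (nu κ i) (nu κ j) from adj_rev.2 h1), if_pos ha]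
              have := hent i j
              rw [h2, mul_comm] at this
              exact mul_right_cancel₀ (dd j).ne_zero this
            · rw [if_neg ha, if_neg]
              intro hA
              exact ha (rel_dual hrel hij (adj_rev.1 hA)).1
          · have hy0 : (y : Matrix (Fin n) (Fin n) F) (nu κ i) (nu κ j) = 0 := by
              rw [h.2 _ _ hnu, Matrix.one_apply_ne ((nu κ).injective.ne hij.ne)]
            have := hent i j
            rw [hy0, mul_zero] at this
            rw [hy0, (mul_eq_zero.1 this.symm).resolve_right (dd j).ne_zero]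
            simp
        · rw [if_neg (fun ha : adj i j => hij ha.lt)]
          split_ifs with hA
          · have hh0 : (h.1 : GL (Fin n) F).val i j = 0 := by
              rw [h.1.2 i j hij, Matrix.one_apply_ne]
              exact fun e => hA.lt.ne (by rw [e])
            have := hent i j
            rw [hh0, zero_mul] at this
            exact (mul_eq_zero.1 this).resolve_left (dd i).ne_zero
          · rfl
      show psi φ n h.1 * conj (φ (supd y)) = 1
      rw [hs, psi, ← AddChar.inv_apply_eq_conj, mul_inv_cancel₀ (φ.val_isUnit _).ne_zero]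
    rw [Finset.sum_congr rfl (fun x _ => hterm x), Finset.sum_const, nsmul_eq_mul, mul_one,
      Finset.card_univ, Nat.card_eq_fintype_card]

/-- The number of generic characters. -/
theorem card_generic {φ : AddChar F ℂ} (hφ : φ ≠ 1) :
    Nat.card {χ : Cfsg.IrrCharacter (GL (Fin n) F) // wh φ (χ : GL (Fin n) F → ℂ) ≠ 0}
      = Nat.card (RelData F n) := by
  have h := classInner_eq_sum (Chars.isClassFunction_of_isCharacter (isCharacter_gg φ n)) (gg φ n)
  rw [classInner_gg_gg hφ] at h
  have hterm : ∀ χ : Cfsg.IrrCharacter (GL (Fin n) F),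
      Cfsg.classInner (gg φ n) (χ : GL (Fin n) F → ℂ) * conj (Cfsg.classInner (gg φ n) (χ : GL (Fin n) F → ℂ))
        = if wh φ (χ : GL (Fin n) F → ℂ) ≠ 0 then 1 else 0 := by
    intro χ
    obtain ⟨m, hm, hwh⟩ := wh_le_one hφ χ
    rw [classInner_comm_conj, classInner_gg φ (isClassFunction_coe χ), hwh]
    interval_cases m <;> simp
  rw [Finset.sum_congr rfl (fun χ _ => hterm χ), Finset.sum_boole, Nat.cast_inj] at h
  rw [h, Nat.card_eq_fintype_card, Fintype.card_subtype]

/-! ## Counting relevant data -/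

/-- The start of the run of `i`. -/
def runStart (cut : ℕ → Prop) (i : ℕ) : ℕ := Nat.findGreatest (fun s => s = 0 ∨ cut (s - 1)) i

theorem runEnd_exists (n : ℕ) (cut : ℕ → Prop) (i : ℕ) : ∃ e, i ≤ e ∧ (n ≤ e + 1 ∨ cut e) :=
  ⟨i + n, by omega, Or.inl (by omega)⟩

/-- The end of the run of `i`. -/
def runEnd (n : ℕ) (cut : ℕ → Prop) (i : ℕ) : ℕ := Nat.find (runEnd_exists n cut i)

theorem run_spec {n : ℕ} {cut : ℕ → Prop} {i : ℕ} (hi : i < n) :
    runStart cut i ≤ i ∧ i ≤ runEnd n cut i ∧ runEnd n cut i < n ∧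
      ∀ x, runStart cut i ≤ x → x < runEnd n cut i → ¬ cut x := by
  have h1 := Nat.find_spec (runEnd_exists n cut i)
  refine ⟨Nat.findGreatest_le i, h1.1, ?_, fun x hx hx' hc => ?_⟩
  · have := Nat.find_min' (runEnd_exists n cut i) (m := n - 1) ⟨by omega, Or.inl (by omega)⟩
    simp only [runEnd]
    omega
  · rcases lt_or_ge x i with hxi | hxi
    · have := Nat.le_findGreatest (P := fun s => s = 0 ∨ cut (s - 1)) (m := x + 1) (n := i) (by omega)
        (Or.inr (by simpa using hc))
      simp only [runStart] at hx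
      omega
    · exact absurd hx' (not_lt.2 (Nat.find_min' _ ⟨hxi, Or.inr hc⟩))

theorem runStart_ge {cut : ℕ → Prop} {x : ℕ} (hc : cut x) : x + 1 ≤ runStart cut (x + 1) :=
  Nat.le_findGreatest (P := fun s => s = 0 ∨ cut (s - 1)) le_rfl (Or.inr (by simpa using hc))

theorem runEnd_spec {n : ℕ} {cut : ℕ → Prop} (i : ℕ) :
    n ≤ runEnd n cut i + 1 ∨ cut (runEnd n cut i) :=
  (Nat.find_spec (runEnd_exists n cut i)).2

theorem run_congr {n : ℕ} {cut : ℕ → Prop} {i x : ℕ} (hi : i < n) (hx : runStart cut i ≤ x)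
    (hx' : x ≤ runEnd n cut i) :
    runStart cut x = runStart cut i ∧ runEnd n cut x = runEnd n cut i := by
  obtain ⟨hS, hE, hEn, hnc⟩ := run_spec (cut := cut) hi
  constructor
  · rw [runStart, Nat.findGreatest_eq_iff]
    refine ⟨hx, fun hne => ?_, fun k hk hkx hP => ?_⟩
    · exact Nat.findGreatest_spec (P := fun s => s = 0 ∨ cut (s - 1)) (m := 0) (Nat.zero_le i) (Or.inl rfl)
    · rcases hP with rfl | hP
      · exact Nat.not_lt_zero _ hk
      · exact hnc (k - 1) (by omega) (by omega) hP
  · rw [runEnd, Nat.find_eq_iff]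
    refine ⟨⟨hx', (Nat.find_spec (runEnd_exists n cut i)).2⟩, fun m hm => ?_⟩
    rintro ⟨h1, h2 | h2⟩
    · have hm' : m < runEnd n cut i := hm
      omega
    · exact hnc m (hx.trans h1) hm h2

theorem rel_unique {κ κ' : Equiv.Perm (Fin n)} {dd dd' : Fin n → Fˣ} (h : Rel κ dd) (h' : Rel κ' dd')
    (hcut : ∀ p q : Fin n, adj p q → (κ p < κ q ↔ κ' p < κ' q)) : κ = κ' := by
  suffices hg : ∀ k s, s + k = n → (∀ i : Fin n, i.val < s → κ i = κ' i ∧ (κ i).val < s) → κ = κ' from
    hg n 0 (zero_add n) fun i hi => absurd hi (Nat.not_lt_zero _)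
  intro k
  induction k using Nat.strong_induction_on with
  | _ k IH =>
    intro s hsk hs
    rcases Nat.eq_zero_or_pos k with rfl | hk
    · exact Equiv.ext fun i => (hs i (by have := i.isLt; omega)).1
    have hsn : s < n := by omega
    have side : ∀ (μ : Equiv.Perm (Fin n)) (ee : Fin n → Fˣ), Rel μ ee →
        (∀ i : Fin n, i.val < s → (μ i).val < s) → (∀ i : Fin n, s ≤ i.val → s ≤ (μ i).val) := by
      intro μ ee hμ hlow i hi
      by_contra hlt
      rw [not_le] at hlt
      have := hlow (μ i) hlt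
      rw [(rel_spec hμ).1] at this
      omega
    have hge := side κ dd h fun i hi => (hs i hi).2
    have hge' := side κ' dd' h' fun i hi => by rw [← (hs i hi).1]; exact (hs i hi).2
    let s₀ : Fin n := ⟨s, hsn⟩
    set j := κ s₀ with hj
    set j' := κ' s₀ with hj'
    have hκj : κ j = s₀ := (rel_spec h).1 s₀
    have hκj' : κ' j' = s₀ := (rel_spec h').1 s₀
    have hjs : s ≤ j.val := hge s₀ le_rfl
    have hjs' : s ≤ j'.val := hge' s₀ le_rfl
    have key := rel_key h hge hκj hjs
    have key' := rel_key h' hge' hκj' hjs'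
    have hjj : j = j' := by
      rcases lt_trichotomy j.val j'.val with hlt | heq | hgt
      · exfalso
        have hq' : j.val + 1 < n := by have := j'.isLt; omega
        obtain ⟨q, hq⟩ : ∃ q : Fin n, q.val = j.val + 1 := ⟨⟨_, hq'⟩, rfl⟩
        have e1 := (key' (j'.val - j.val) (by omega) j (by omega)).1
        have e2 := (key' (j'.val - q.val) (by omega) q (by omega)).1
        have e3 := hge q (by omega)
        have e4 : (κ q).val ≠ (κ j).val := fun e => by
          have := congrArg Fin.val (κ.injective (Fin.ext e))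
          omega
        have e5 : (κ j).val = s := congrArg Fin.val hκj
        have := (hcut j q hq.symm).1 (Fin.lt_def.2 (by omega))
        rw [Fin.lt_def] at this
        omega
      · exact Fin.ext heq
      · exfalso
        have hq' : j'.val + 1 < n := by have := j.isLt; omega
        obtain ⟨q, hq⟩ : ∃ q : Fin n, q.val = j'.val + 1 := ⟨⟨_, hq'⟩, rfl⟩
        have e1 := (key (j.val - j'.val) (by omega) j' (by omega)).1
        have e2 := (key (j.val - q.val) (by omega) q (by omega)).1
        have e3 := hge' q (by omega)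
        have e4 : (κ' q).val ≠ (κ' j').val := fun e => by
          have := congrArg Fin.val (κ'.injective (Fin.ext e))
          omega
        have e5 : (κ' j').val = s := congrArg Fin.val hκj'
        have := (hcut j' q hq.symm).2 (Fin.lt_def.2 (by omega))
        rw [Fin.lt_def] at this
        omega
    refine IH (n - (j.val + 1)) (by have := j.isLt; omega) (j.val + 1) (by have := j.isLt; omega) ?_
    intro i hi
    rcases lt_or_ge i.val s with his | his
    · exact ⟨(hs i his).1, by have := (hs i his).2; omega⟩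
    · have e1 := (key (j.val - i.val) (by omega) i (by omega)).1
      have e2 := (key' (j'.val - i.val) (by rw [← hjj]; omega) i (by rw [← hjj]; omega)).1
      exact ⟨Fin.ext (by rw [e1, e2, ← hjj]), by omega⟩

theorem card_relData (k : ℕ) :
    Nat.card (RelData F (k + 1)) = (Fintype.card F - 1) * Fintype.card F ^ k := by
  let f : RelData F (k + 1) → Fˣ × (Fin k → Option Fˣ) := fun x =>
    (x.1.2 0, fun i => if x.1.1 i.castSucc < x.1.1 i.succ then some (x.1.2 i.succ) else none)
  have hadj : ∀ i : Fin k, adj i.castSucc i.succ := fun i => by simp [adj]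
  have hadj' : ∀ p q : Fin (k + 1), adj p q → ∃ i : Fin k, p = i.castSucc ∧ q = i.succ := by
    intro p q hpq
    unfold adj at hpq
    have := q.isLt
    exact ⟨⟨p.val, by omega⟩, Fin.ext (by simp), Fin.ext (by simp; omega)⟩
  have hne : ∀ (μ : Equiv.Perm (Fin (k + 1))) (i : Fin k), μ i.castSucc ≠ μ i.succ := fun μ i =>
    μ.injective.ne i.castSucc_lt_succ.ne
  have hinj : Function.Injective f := by
    rintro ⟨⟨κ, dd⟩, h⟩ ⟨⟨κ', dd'⟩, h'⟩ e
    simp only [f, Prod.mk.injEq] at e
    obtain ⟨e0, e1⟩ := e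
    have hiff : ∀ i : Fin k, κ i.castSucc < κ i.succ ↔ κ' i.castSucc < κ' i.succ := fun i => by
      have := congrFun e1 i
      split_ifs at this with a b b <;> first | exact iff_of_true a b | exact iff_of_false a b | simp_all
    have hκ : κ = κ' := rel_unique h h' fun p q hpq => by
      obtain ⟨i, rfl, rfl⟩ := hadj' p q hpq
      exact hiff i
    subst hκ
    change Rel κ dd at h
    change Rel κ dd' at h'
    have hd : dd = dd' := funext fun i => by
      induction i using Fin.induction with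
      | zero => exact e0
      | succ i ih =>
        by_cases hc : κ i.castSucc < κ i.succ
        · have := congrFun e1 i
          rwa [if_pos hc, if_pos hc, Option.some.injEq] at this
        · have hlt : κ i.succ < κ i.castSucc := lt_of_le_of_ne (not_lt.1 hc) (hne κ i).symm
          rw [← (h _ _ (hadj i) hlt).2, ← (h' _ _ (hadj i) hlt).2, ih]
    subst hd
    rfl
  have hsurj : Function.Surjective f := by
    rintro ⟨a, fl⟩
    let cut : ℕ → Prop := fun x => ∃ h : x < k, fl ⟨x, h⟩ ≠ none
    let g : Fin (k + 1) → Fin (k + 1) := fun i =>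
      ⟨runStart cut i + runEnd (k + 1) cut i - i, by
        obtain ⟨h1, h2, h3, -⟩ := run_spec (cut := cut) i.isLt
        omega⟩
    have hg : Function.Involutive g := fun i => by
      obtain ⟨h1, h2, h3, -⟩ := run_spec (cut := cut) i.isLt
      obtain ⟨hS, hE⟩ := run_congr (cut := cut) i.isLt (x := (g i).val) (by simp [g]; omega)
        (by simp [g]; omega)
      apply Fin.ext
      show runStart cut (g i).val + runEnd (k + 1) cut (g i).val - (g i).val = i.val
      rw [hS, hE]
      simp only [g]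
      omega
    let κ : Equiv.Perm (Fin (k + 1)) := hg.toPerm
    let dd : Fin (k + 1) → Fˣ := Fin.induction a fun i prev => (fl i).getD prev
    have hκ : ∀ i, (κ i).val = runStart cut i + runEnd (k + 1) cut i - i := fun _ => rfl
    have hdd : ∀ i : Fin k, dd i.succ = (fl i).getD (dd i.castSucc) := fun i => by
      simp [dd]
    have hup : ∀ i : Fin k, fl i ≠ none → κ i.castSucc < κ i.succ := by
      intro i hi
      have hc : cut i.val := ⟨i.isLt, hi⟩
      obtain ⟨a1, a2, a3, a4⟩ := run_spec (cut := cut) i.castSucc.isLt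
      obtain ⟨b1, b2, b3, b4⟩ := run_spec (cut := cut) i.succ.isLt
      rw [Fin.lt_def, hκ, hκ]
      simp only [Fin.val_castSucc, Fin.val_succ] at *
      have h1 : ¬ i.val < runEnd (k + 1) cut i.val := fun hlt => a4 i.val a1 hlt hc
      have h2 : i.val + 1 ≤ runStart cut (i.val + 1) :=
        runStart_ge hc
      omega
    have hdown : ∀ i : Fin k, fl i = none → (κ i.succ).val + 1 = (κ i.castSucc).val := by
      intro i hi
      obtain ⟨a1, a2, a3, a4⟩ := run_spec (cut := cut) i.castSucc.isLt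
      rw [hκ, hκ]
      simp only [Fin.val_castSucc, Fin.val_succ] at *
      have h1 : i.val < runEnd (k + 1) cut i.val := by
        rcases a2.lt_or_eq with h | h
        · exact h
        · exfalso
          rcases runEnd_spec (n := k + 1) (cut := cut) i.val with h' | h'
          · have h'' : k + 1 ≤ runEnd (k + 1) cut i.val + 1 := h'
            have := i.isLt
            omega
          · have h'' : cut (runEnd (k + 1) cut i.val) := h'
            rw [← h] at h''
            obtain ⟨_, h3⟩ := h''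
            exact h3 hi
      obtain ⟨hS, hE⟩ := run_congr (cut := cut) (n := k + 1) (i := i.val) (by omega)
        (x := i.val + 1) (by omega) (by omega)
      rw [hS, hE]
      omega
    have hrel : Rel κ dd := by
      intro p q hpq hlt
      obtain ⟨i, rfl, rfl⟩ := hadj' p q hpq
      by_cases hi : fl i = none
      · exact ⟨hdown i hi, by rw [hdd, hi]; rfl⟩
      · exact absurd hlt (not_lt.2 (hup i hi).le)
    refine ⟨⟨(κ, dd), hrel⟩, Prod.ext (by simp [f, dd]) (funext fun i => ?_)⟩
    simp only [f]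
    rcases hfi : fl i with _ | v
    · rw [if_neg]
      intro hlt
      have := hdown i hfi
      rw [Fin.lt_def] at hlt
      omega
    · rw [if_pos (hup i (by simp [hfi])), hdd, hfi]
      rfl
  rw [Nat.card_congr (Equiv.ofBijective f ⟨hinj, hsurj⟩), Nat.card_prod, Nat.card_pi,
    Finset.prod_const, Finset.card_univ, Fintype.card_fin, Nat.card_eq_fintype_card,
    Nat.card_eq_fintype_card, Fintype.card_option, Fintype.card_units,
    Nat.sub_add_cancel Fintype.card_pos]

end CfsgLib.GLCusp
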