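import Cfsg.Agent.GLCusp.Induce

/-!
# Whittaker multiplicities of induced systems
-/

set_option autoImplicit false

noncomputable section

namespace CfsgLib.GLCusp

open Matrix Finset CfsgLib.Chars CfsgLib.Chars.Induced
open CfsgLib.Unipotent (pm)
open scoped Classical ComplexConjugate

variable {F : Type*} [Field F] [Fintype F] [DecidableEq F] {n : ℕ}

/-- Consecutive positions. -/
def adj (i j : Fin n) : Prop := i.val + 1 = j.val

theorem adj.lt {i j : Fin n} (h : adj i j) : i < j := by
  unfold adj at h; rw [Fin.lt_def]; omega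

/-- The sum of the superdiagonal entries. -/
def supd (g : GL (Fin n) F) : F :=
  ∑ i, ∑ j, if adj i j then (g : Matrix (Fin n) (Fin n) F) i j else 0

theorem lt_trans' : ∀ i j k : Fin n, i < j → j < k → i < k := fun _ _ _ => lt_trans

/-- The upper unitriangular group. -/
def Uu (F : Type*) [Field F] [Fintype F] [DecidableEq F] (n : ℕ) : Subgroup (GL (Fin n) F) :=
  pat (fun i j => i < j) lt_trans'

theorem mem_Uu {g : GL (Fin n) F} : g ∈ Uu F n ↔ Pat (fun i j => i < j) g := Iff.rfl

theorem supd_mul {g h : GL (Fin n) F} (hg : g ∈ Uu F n) (hh : h ∈ Uu F n) :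
    supd (g * h) = supd g + supd h := by
  simp only [supd, ← Finset.sum_add_distrib]
  refine Finset.sum_congr rfl fun i _ => Finset.sum_congr rfl fun j _ => ?_
  split_ifs with hij
  · have hlt := hij.lt
    rw [Units.val_mul, Matrix.mul_apply, Finset.sum_eq_add i j hlt.ne]
    · rw [hg i i (lt_irrefl _), hh j j (lt_irrefl _), Matrix.one_apply_eq, Matrix.one_apply_eq,
        one_mul, mul_one, add_comm]
    · intro k _ hk
      by_cases hik : i < k
      · rw [hh k j ?_, Matrix.one_apply_ne hk.2, mul_zero]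
        show ¬ k < j
        unfold adj at hij
        rw [Fin.lt_def] at hik ⊢
        omega
      · rw [hg i k hik, Matrix.one_apply_ne (Ne.symm hk.1), zero_mul]
    all_goals simp
  · simp

variable (φ : AddChar F ℂ)

/-- The nondegenerate character of the unitriangular group. -/
def psiHom (n : ℕ) : (Uu F n : Subgroup (GL (Fin n) F)) →* ℂ where
  toFun u := φ (supd (u : GL (Fin n) F))
  map_one' := by
    rw [show supd ((1 : (Uu F n : Subgroup (GL (Fin n) F))) : GL (Fin n) F) = 0 from ?_,
      AddChar.map_zero_eq_one]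
    refine Finset.sum_eq_zero fun i _ => Finset.sum_eq_zero fun j _ => ?_
    split_ifs with h
    · simp [Matrix.one_apply_ne h.lt.ne]
    · rfl
  map_mul' u v := by
    rw [Subgroup.coe_mul, supd_mul u.2 v.2, AddChar.map_add_eq_mul]

/-- The nondegenerate character, as a function. -/
def psi (n : ℕ) (u : (Uu F n : Subgroup (GL (Fin n) F))) : ℂ := φ (supd (u : GL (Fin n) F))

theorem psi_eq (n : ℕ) : psi φ n = fun u => psiHom φ n u := rfl

theorem isClassFunction_psi (n : ℕ) : Cfsg.IsClassFunction _ (psi φ n) := fun u v => by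
  show psiHom φ n (v * u * v⁻¹) = psiHom φ n u
  rw [map_mul, map_mul, mul_comm (psiHom φ n v), mul_assoc, ← map_mul, mul_inv_cancel, map_one,
    mul_one]

/-- The Gelfand--Graev character. -/
def gg (n : ℕ) : GL (Fin n) F → ℂ := Cfsg.indFun (Uu F n) (psi φ n)

theorem isCharacter_gg (n : ℕ) : Cfsg.IsCharacter _ (gg φ n) := by
  rw [gg, psi_eq]
  exact isCharacter_indFun_hom (Uu F n) (psiHom φ n)

/-- The Whittaker multiplicity. -/
def wh (χ : GL (Fin n) F → ℂ) : ℂ :=
  Cfsg.classInner (fun u : (Uu F n : Subgroup (GL (Fin n) F)) => χ u) (psi φ n)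

theorem classInner_gg {χ : GL (Fin n) F → ℂ} (hχ : Cfsg.IsClassFunction _ χ) :
    Cfsg.classInner χ (gg φ n) = wh φ χ := classInner_indFun_right _ _ hχ

theorem monotone_eq_of_card {r : ℕ} {f g : Fin n → Fin r} (hf : Monotone f) (hg : Monotone g)
    (h : ∀ a, (univ.filter fun i => f i = a).card = (univ.filter fun i => g i = a).card) : f = g := by
  have hlt : ∀ a, (univ.filter fun i => f i < a).card = (univ.filter fun i => g i < a).card := by
    intro a
    have key : ∀ q : Fin n → Fin r, (univ.filter fun i => q i < a).card =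
        ∑ b ∈ univ.filter (fun b => b < a), (univ.filter fun i => q i = b).card := by
      intro q
      rw [Finset.card_eq_sum_card_fiberwise (f := q) (t := univ.filter (fun b => b < a))
        (fun i hi => by simpa using hi)]
      refine Finset.sum_congr rfl fun b hb => congrArg Finset.card ?_
      ext i
      simp only [Finset.mem_filter, Finset.mem_univ, true_and] at hb ⊢
      exact ⟨fun h => h.2, fun h => ⟨h ▸ hb, h⟩⟩
    rw [key, key, Finset.sum_congr rfl (fun b _ => h b)]
  have main : ∀ (p q : Fin n → Fin r), Monotone p → Monotone q →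
      (∀ a, (univ.filter fun i => p i < a).card = (univ.filter fun i => q i < a).card) →
      ∀ i, q i ≤ p i := by
    intro p q hp hq hc i
    by_contra hne
    rw [not_le] at hne
    have h1 : Finset.Iic i ⊆ univ.filter fun j => p j < q i := fun j hj => by
      simpa using (hp (Finset.mem_Iic.1 hj)).trans_lt hne
    have h2 : (univ.filter fun j => q j < q i) ⊆ Finset.Iio i := fun j hj => by
      refine Finset.mem_Iio.2 (not_le.1 fun hij => ?_)
      exact absurd (Finset.mem_filter.1 hj).2 (not_lt.2 (hq hij))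
    have h3 := Finset.card_le_card h1
    have h4 := Finset.card_le_card h2
    rw [Fin.card_Iic] at h3
    rw [Fin.card_Iio, ← hc] at h4
    omega
  exact funext fun i => le_antisymm (main g f hg hf (fun a => (hlt a).symm) i) (main f g hf hg hlt i)

theorem addChar_map_sum {ι : Type*} (s : Finset ι) (f : ι → F) :
    φ (∑ i ∈ s, f i) = ∏ i ∈ s, φ (f i) := by
  induction s using Finset.induction_on with
  | empty => simp
  | @insert a s ha ih => rw [Finset.sum_insert ha, Finset.prod_insert ha, AddChar.map_add_eq_mul, ih]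

/-- An elementary transvection. -/
def root (i j : Fin n) (hij : i ≠ j) (t : F) : GL (Fin n) F :=
  Matrix.GeneralLinearGroup.mkOfDetNeZero (Matrix.transvection i j t)
    (by rw [Matrix.det_transvection_of_ne i j hij]; exact one_ne_zero)

theorem root_apply (i j : Fin n) (hij : i ≠ j) (t : F) (p q : Fin n) :
    ((root i j hij t : GL (Fin n) F) : Matrix (Fin n) (Fin n) F) p q
      = (1 : Matrix (Fin n) (Fin n) F) p q + if i = p ∧ j = q then t else 0 := by
  simp [root, Matrix.transvection, Matrix.single_apply]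

theorem root_pat (S : Fin n → Fin n → Prop) (i j : Fin n) (hij : i ≠ j) (h : S i j) (t : F) :
    Pat S (root i j hij t) := fun p q hpq => by
  rw [root_apply, if_neg, add_zero]
  rintro ⟨rfl, rfl⟩
  exact hpq h

theorem supd_root (i j : Fin n) (hij : adj i j) (t : F) : supd (root i j hij.lt.ne t) = t := by
  rw [supd, Finset.sum_eq_single i, Finset.sum_eq_single j]
  · rw [if_pos hij, root_apply, Matrix.one_apply_ne hij.lt.ne, if_pos ⟨rfl, rfl⟩, zero_add]
  · intro q _ hq
    rw [if_neg]
    intro h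
    unfold adj at h hij
    exact hq (Fin.ext (by omega))
  · simp
  · intro p _ hp
    refine Finset.sum_eq_zero fun q _ => ?_
    split_ifs with h
    · rw [root_apply, if_neg (fun e => hp e.1.symm), add_zero, Matrix.one_apply_ne h.lt.ne]
    · rfl
  · simp

theorem conj_root (w : Equiv.Perm (Fin n)) (p q : Fin n) (hpq : p ≠ q) (t : F) :
    (pm w : GL (Fin n) F)⁻¹ * root (w p) (w q) (w.injective.ne hpq) t * pm w = root p q hpq t := by
  refine Units.ext (Matrix.ext fun i j => ?_)
  rw [conj_pm_apply, root_apply, root_apply]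
  simp [Matrix.one_apply]

/-- The diagonal part. -/
def diagPart (b : GL (Fin n) F) (h : ∀ i, (b : Matrix (Fin n) (Fin n) F) i i ≠ 0) : GL (Fin n) F :=
  Matrix.GeneralLinearGroup.mkOfDetNeZero (Matrix.diagonal fun i => (b : Matrix (Fin n) (Fin n) F) i i)
    (by rw [Matrix.det_diagonal]; exact Finset.prod_ne_zero_iff.2 fun i _ => h i)

theorem coe_diagPart (b : GL (Fin n) F) (h : ∀ i, (b : Matrix (Fin n) (Fin n) F) i i ≠ 0) :
    (diagPart b h : Matrix (Fin n) (Fin n) F)
      = Matrix.diagonal fun i => (b : Matrix (Fin n) (Fin n) F) i i := rfl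

theorem diag_ne_zero {b : GL (Fin n) F} (hb : CfsgLib.Unipotent.IsUpper b) (i : Fin n) :
    (b : Matrix (Fin n) (Fin n) F) i i ≠ 0 := by
  intro h
  have hdet : (b : Matrix (Fin n) (Fin n) F).det ≠ 0 :=
    (Matrix.GeneralLinearGroup.det b).ne_zero
  refine hdet ?_
  rw [Matrix.det_of_isUpperTriangular (fun p q hpq => hb p q hpq)]
  exact Finset.prod_eq_zero (Finset.mem_univ i) h

theorem exists_diag_mul_unit {b : GL (Fin n) F} (hb : CfsgLib.Unipotent.IsUpper b) :
    ∃ (t u : GL (Fin n) F), b = t * u ∧ u ∈ Uu F n ∧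
      ∀ p q, p ≠ q → (t : Matrix (Fin n) (Fin n) F) p q = 0 := by
  refine ⟨diagPart b (diag_ne_zero hb), (diagPart b (diag_ne_zero hb))⁻¹ * b,
    by rw [mul_inv_cancel_left], ?_, fun p q h => by rw [coe_diagPart, Matrix.diagonal_apply_ne _ h]⟩
  intro p q hpq
  set t := diagPart b (diag_ne_zero hb) with ht
  have e := congrArg (fun g : GL (Fin n) F => (g : Matrix (Fin n) (Fin n) F) p q)
    (mul_inv_cancel_left t b)
  simp only [Units.val_mul, ht, coe_diagPart, Matrix.diagonal_mul] at e
  rw [← mul_right_inj' (diag_ne_zero hb p), Units.val_mul]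
  refine e.trans ?_
  rcases eq_or_lt_of_le (not_lt.1 hpq) with h | h
  · subst h; simp
  · rw [hb p q h, Matrix.one_apply_ne h.ne', mul_zero]

namespace Blk

variable {B : Blk n}

theorem kern_gg_eq_zero (hφ : φ ≠ 1) (δ : B.Sys F) (w : Equiv.Perm (Fin n)) {p q : Fin n}
    (hpq : adj p q) (h : B.β (w p) < B.β (w q)) :
    kern B.P (Uu F n) (B.pFun δ) (psi φ n) (pm w : GL (Fin n) F) = 0 := by
  obtain ⟨t, ht⟩ := AddChar.ne_one_iff.1 hφ
  set x : GL (Fin n) F := pm w with hx
  set T := kern B.P (Uu F n) (B.pFun δ) (psi φ n) x with hT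
  have hr : Pat B.U' (root (w p) (w q) (w.injective.ne hpq.lt.ne) t) :=
    root_pat B.U' (w p) (w q) (w.injective.ne hpq.lt.ne) h t
  let h₀ : (B.P : Subgroup (GL (Fin n) F)) := ⟨_, B.U_mem_P hr⟩
  have hx₀ : root p q hpq.lt.ne t ∈ Uu F n := root_pat _ _ _ _ hpq.lt _
  have key : T = conj (φ t) * T := by
    rw [hT, kern, Finset.mul_sum]
    symm
    refine Fintype.sum_equiv (Equiv.mulRight h₀) _ _ fun g => ?_
    simp only [Equiv.coe_mulRight, pFun, map_mul, (B.projAll_eq_one_iff h₀).2 hr, mul_one]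
    have e : x⁻¹ * ((g * h₀ : (B.P : Subgroup (GL (Fin n) F))) : GL (Fin n) F) * x
        = (x⁻¹ * (g : GL (Fin n) F) * x) * root p q hpq.lt.ne t := by
      rw [← conj_root w p q hpq.lt.ne t, Subgroup.coe_mul, hx]
      group
      rfl
    rw [e]
    by_cases hy : x⁻¹ * (g : GL (Fin n) F) * x ∈ Uu F n
    · rw [extendByZero_mem _ (mul_mem hy hx₀), extendByZero_mem _ hy]
      simp only [psi, supd_mul hy hx₀, supd_root p q hpq, AddChar.map_add_eq_mul, map_mul]
      ring
    · rw [extendByZero_notMem _ hy, extendByZero_notMem]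
      · simp
      · intro h'
        exact hy (by simpa using mul_mem h' (inv_mem hx₀))
  have h1 : conj (φ t) ≠ 1 := fun e => ht (by simpa using congrArg conj e)
  by_contra hT0
  exact h1 (mul_right_cancel₀ hT0 ((one_mul T).symm ▸ key.symm))

/-- Whittaker multiplicities multiply. -/
theorem classInner_R_gg (hφ : φ ≠ 1) (δ : B.Sys F) :
    Cfsg.classInner (B.R δ) (gg φ n) = ∏ a, wh φ (δ a : GL (Fin (B.s a)) F → ℂ) := by
  rw [R, gg, classInner_ind_ind_eq_sum (B.isClassFunction_pFun δ) (isClassFunction_psi φ n)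
    (ι := Unit) (fun _ => pm Fin.revPerm) ?_ (fun _ _ _ => rfl)]
  swap
  · intro g hg
    obtain ⟨b, b', σ, hb, hb', he⟩ := CfsgLib.Unipotent.exists_bruhat g
    have hinvup : CfsgLib.Unipotent.IsUpper b'⁻¹ := by
      have : b'⁻¹ ∈ finSubgroup (G := GL (Fin n) F) CfsgLib.Unipotent.IsUpper
          (fun i j h => by simp [h.ne']) (fun _ _ h h' => h.mul h') := inv_mem (show b' ∈ _ from hb')
      exact this
    obtain ⟨t, u, htu, hu, ht⟩ := exists_diag_mul_unit hinvup
    have ht' : (pm σ * t * (pm σ)⁻¹ : GL (Fin n) F) ∈ B.P := by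
      intro i j hij
      rw [pm_conj_apply, ht]
      intro e
      exact hij.ne (by rw [σ.symm.injective e])
    let a₀ : (B.P : Subgroup (GL (Fin n) F)) := ⟨b⁻¹ * (pm σ * t * (pm σ)⁻¹),
      mul_mem (inv_mem (B.upper_mem_P hb)) ht'⟩
    have hgeq : g = (a₀ : GL (Fin n) F) * pm σ * u := by
      have : g = b⁻¹ * pm σ * b'⁻¹ := by rw [← he]; group
      rw [this, htu]
      simp only [a₀]
      group
    rw [hgeq, kern_mul (B.isClassFunction_pFun δ) (isClassFunction_psi φ n) a₀ ⟨u, hu⟩] at hg
    have hanti : Antitone fun j => B.β (σ j) := by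
      rcases Nat.eq_zero_or_pos n with rfl | hn
      · exact fun i => i.elim0
      obtain ⟨k, rfl⟩ : ∃ k, n = k + 1 := ⟨n - 1, by omega⟩
      refine Fin.antitone_iff_succ_le.2 fun i => not_lt.1 fun hlt => ?_
      exact hg (kern_gg_eq_zero φ hφ δ σ (p := i.castSucc) (q := i.succ) (by simp [adj]) hlt)
    have hβ : (fun j => B.β (σ (Fin.rev j))) = B.β := by
      refine monotone_eq_of_card (fun i j hij => hanti (Fin.rev_le_rev.2 hij)) B.mono fun a => ?_
      exact Finset.card_equiv (Fin.revPerm.trans σ) (fun i => by simp [Fin.revPerm_apply])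
    let y : Equiv.Perm (Fin n) := σ * Fin.revPerm
    have hy : (pm y : GL (Fin n) F) ∈ B.P := pm_mem_P _ fun j => congrFun hβ j
    refine ⟨(), a₀ * ⟨pm y, hy⟩, ⟨u, hu⟩, ?_⟩
    rw [hgeq, Subgroup.coe_mul]
    simp only [y, map_mul, mul_assoc]
    rw [← mul_assoc (pm Fin.revPerm) (pm Fin.revPerm), ← map_mul]
    rw [show (Fin.revPerm * Fin.revPerm : Equiv.Perm (Fin n)) = 1 from Equiv.ext fun i => Fin.rev_rev i,
      map_one, one_mul]
  rw [Fintype.sum_unique]
  set x : GL (Fin n) F := pm Fin.revPerm with hx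
  have hent : ∀ (h : GL (Fin n) F) (i j : Fin n),
      ((x⁻¹ * h * x : GL (Fin n) F) : Matrix (Fin n) (Fin n) F) i j
        = (h : Matrix (Fin n) (Fin n) F) i.rev j.rev := fun h i j => by
    rw [hx, conj_pm_apply]; rfl
  have hlow : ∀ h : {h : (B.P : Subgroup (GL (Fin n) F)) // x⁻¹ * (h : GL (Fin n) F) * x ∈ Uu F n},
      (∀ i j, ¬ j < i → ((h.1 : GL (Fin n) F) : Matrix (Fin n) (Fin n) F) i j
        = (1 : Matrix (Fin n) (Fin n) F) i j) ∧
      (∀ i j, B.β i ≠ B.β j → ((h.1 : GL (Fin n) F) : Matrix (Fin n) (Fin n) F) i j = 0) := by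
    intro h
    have h1 : ∀ i j, ¬ j < i → ((h.1 : GL (Fin n) F) : Matrix (Fin n) (Fin n) F) i j
        = (1 : Matrix (Fin n) (Fin n) F) i j := fun i j hij => by
      have := h.2 i.rev j.rev (fun e => hij (Fin.rev_lt_rev.1 e))
      rw [hent, Fin.rev_rev, Fin.rev_rev] at this
      rw [this]
      simp [Matrix.one_apply]
    refine ⟨h1, fun i j hij => ?_⟩
    rcases lt_or_gt_of_ne hij with hlt | hlt
    · rw [h1 i j (fun e => absurd (B.mono e.le) (not_le.2 hlt)), Matrix.one_apply_ne]
      rintro rfl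
      exact lt_irrefl _ hlt
    · exact h.1.2 i j hlt
  let V := ∀ a : Fin B.r, (Uu F (B.s a) : Subgroup (GL (Fin (B.s a)) F))
  let back : V → GL (Fin n) F := fun v =>
    B.emb fun a => pm Fin.revPerm * (v a : GL (Fin (B.s a)) F) * (pm Fin.revPerm)⁻¹
  have hback : ∀ v : V, x⁻¹ * back v * x ∈ Uu F n := by
    intro v i j hij
    rw [hent]
    obtain ⟨⟨a, k⟩, hk⟩ := B.idx.surjective i.rev
    obtain ⟨⟨b, l⟩, hl⟩ := B.idx.surjective j.rev
    rw [← hk, ← hl, B.idx_apply, B.idx_apply]
    by_cases hab : a = b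
    · subst hab
      simp only [back, emb_diag, pm_conj_apply, Fin.revPerm_symm, Fin.revPerm_apply]
      rw [(v a).2 k.rev l.rev fun hlt => hij ?_]
      · have : i = j ↔ k = l := by
          rw [← Fin.rev_inj, ← hk, ← hl, B.idx_apply, B.idx_apply, EmbeddingLike.apply_eq_iff_eq]
        simp [Matrix.one_apply, this]
      · show i < j
        rw [← Fin.rev_lt_rev, ← hk, ← hl, B.idx_apply, B.idx_apply]
        exact (B.e a).lt_iff_lt.2 (Fin.rev_lt_rev.1 hlt)
    · simp only [back]
      rw [B.emb_off _ (by rwa [B.β_e, B.β_e]), Matrix.one_apply_ne]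
      rintro rfl
      rw [← hk, B.idx_apply, B.idx_apply] at hl
      exact hab (B.e_inj hl).symm
  let E : V ≃ {h : (B.P : Subgroup (GL (Fin n) F)) // x⁻¹ * (h : GL (Fin n) F) * x ∈ Uu F n} :=
    { toFun := fun v => ⟨⟨back v, B.emb_mem _⟩, hback v⟩
      invFun := fun h a => ⟨(pm Fin.revPerm)⁻¹ * B.proj a h.1 * pm Fin.revPerm, fun k l hkl => by
        rw [conj_pm_apply, proj_apply, Fin.revPerm_apply, Fin.revPerm_apply, (hlow h).1 _ _ (fun e => hkl (Fin.rev_lt_rev.1
          (((B.e a).lt_iff_lt).1 e)))]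
        simp [Matrix.one_apply]⟩
      left_inv := fun v => funext fun a => Subtype.ext (by
        have : B.proj a ⟨back v, B.emb_mem _⟩ = _ := congrFun (B.projAll_emb _) a
        simp only
        rw [this]
        group)
      right_inv := fun h => Subtype.ext (Subtype.ext (Units.ext (Matrix.ext fun i j => by
        obtain ⟨⟨a, k⟩, rfl⟩ := B.idx.surjective i
        obtain ⟨⟨b, l⟩, rfl⟩ := B.idx.surjective j
        simp only [back, B.idx_apply]
        by_cases hab : a = b
        · subst hab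
          rw [emb_diag, pm_conj_apply, conj_pm_apply, proj_apply]
          simp
        · rw [B.emb_off _ (by rwa [B.β_e, B.β_e]), (hlow h).2 _ _ (by rwa [B.β_e, B.β_e])]))) }
  have hθ : ∀ v : V, B.pFun δ (E v).1 = ∏ a, (δ a : GL (Fin (B.s a)) F → ℂ) (v a) := by
    intro v
    show B.prodFun δ (B.projAll ⟨back v, B.emb_mem _⟩) = _
    rw [B.projAll_emb]
    refine Finset.prod_congr rfl fun a _ => ?_
    exact isClassFunction_coe (δ a) _ (pm Fin.revPerm)
  have hη : ∀ v : V, psi φ n ⟨_, (E v).2⟩ = ∏ a, psi φ (B.s a) (v a) := by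
    intro v
    simp only [psi]
    have : supd (x⁻¹ * ((E v).1 : GL (Fin n) F) * x) = ∑ a, supd (v a : GL (Fin (B.s a)) F) := by
      show supd (x⁻¹ * back v * x) = _
      rw [supd, ← Equiv.sum_comp (B.idx.trans Fin.revPerm), Fintype.sum_sigma]
      refine Finset.sum_congr rfl fun a _ => ?_
      rw [supd, ← Equiv.sum_comp Fin.revPerm]
      refine Finset.sum_congr rfl fun k _ => ?_
      rw [← Equiv.sum_comp (B.idx.trans Fin.revPerm), Fintype.sum_sigma, Finset.sum_eq_single a]
      · rw [← Equiv.sum_comp Fin.revPerm]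
        refine Finset.sum_congr rfl fun l _ => ?_
        simp only [Equiv.trans_apply, Fin.revPerm_apply, B.idx_apply, hent, Fin.rev_rev, back,
          emb_diag, pm_conj_apply, Fin.revPerm_symm]
        refine if_congr ?_ rfl rfl
        simp only [adj, Fin.val_rev]
        have h1 := B.e_adj_iff a l.rev k.rev
        simp only [Fin.val_rev] at h1
        have h3 := (B.e a l.rev).isLt
        have h4 := (B.e a k.rev).isLt
        have h5 := l.isLt
        have h6 := k.isLt
        constructor <;> intro h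
        · have := h1.1 (by omega); omega
        · have := h1.2 (by omega); omega
      · intro b _ hb
        refine Finset.sum_eq_zero fun l _ => ?_
        simp only [Equiv.trans_apply, Fin.revPerm_apply, B.idx_apply, hent, Fin.rev_rev, back]
        rw [B.emb_off _ (by rw [B.β_e, B.β_e]; exact Ne.symm hb)]
        simp
      · simp
    rw [this]
    exact addChar_map_sum φ _ _
  rw [kern_eq, ← Nat.card_congr E, ← Equiv.sum_comp E]
  simp only [hθ, hη, map_prod, ← Finset.prod_mul_distrib]
  rw [Nat.card_pi, Nat.cast_prod, ← Finset.prod_inv_distrib,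
    ← Fintype.prod_sum (fun a (u : (Uu F (B.s a) : Subgroup (GL (Fin (B.s a)) F))) =>
      (δ a : GL (Fin (B.s a)) F → ℂ) u * conj (psi φ (B.s a) u)), ← Finset.prod_mul_distrib]
  rfl

end Blk

end CfsgLib.GLCusp
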